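import Mathlib
import Cfsg.Agent.Lib.AschF.Perp
import Cfsg.Agent.Lib.Classical.SympForm
import Cfsg.Agent.Lib.Witt.SympStab

/-!
# Symplectic groups: the data of being in no class
-/

set_option autoImplicit false

namespace Cfsg.Agent.Lib.AschS.Base

open Matrix Module Cfsg Cfsg.Geo
open Cfsg.Agent.Lib.Asch.Forms Cfsg.Agent.Lib.AschF.Adj Cfsg.Agent.Lib.AschF.Cliff Cfsg.Agent.Lib.AschF.Perp
open Cfsg.Agent.Lib.Geo.Basic (mem_subspaceStabilizer_iff_forall_mem mem_subspaceStabilizer_iff_map_eq)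

universe u

variable {F : Type u} [Field F]

theorem symp_self (m : ℕ) (v : Fin m ⊕ Fin m → F) : sympForm m F v v = 0 := by
  rw [Cfsg.Agent.Lib.Classical.SympForm.sympForm_eq_sum]
  exact Finset.sum_eq_zero fun i _ => by ring

/-- The standard form. -/
theorem hf_symp (m : ℕ) : HF (RingEquiv.refl F) (-1) (sympForm m F) := by
  refine ⟨⟨fun x y v => ?_, fun c x v => ?_, fun v x y => ?_, fun c v x => ?_⟩, fun v hv => ?_, fun u v => ?_, fun _ => rfl⟩
  · simp only [sympForm, add_dotProduct]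
  · simp only [sympForm, smul_dotProduct, smul_eq_mul]
  · simp only [sympForm, Matrix.mulVec_add, dotProduct_add]
  · simp only [sympForm, Matrix.mulVec_smul, dotProduct_smul, smul_eq_mul, RingEquiv.refl_apply]
  · have h1 : ∃ x, sympForm m F v x ≠ 0 := by
      by_contra hcon
      push Not at hcon
      exact hv (Cfsg.Agent.Lib.Witt.SympStab.sympForm_nondeg m v hcon)
    obtain ⟨x, hx⟩ := h1
    refine ⟨⟨x, fun h0 => hx ?_⟩, ⟨x, hx⟩⟩
    have h3 : sympForm m F v x = - sympForm m F x v := by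
      simp only [Cfsg.Agent.Lib.Classical.SympForm.sympForm_eq_sum]
      rw [← Finset.sum_neg_distrib]
      exact Finset.sum_congr rfl fun i _ => by ring
    rw [h3, h0, neg_zero]
  · simp only [Cfsg.Agent.Lib.Classical.SympForm.sympForm_eq_sum, RingEquiv.refl_apply, Finset.mul_sum]
    exact Finset.sum_congr rfl fun i _ => by ring

variable {ι : Type} [Fintype ι] [DecidableEq ι] [Fintype F]

/-- The data of being in no class, symplectic case. -/
structure SNoClass (f : (ι → F) → (ι → F) → F) (H : Subgroup (GL ι F)) : Prop where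
  ts : ∀ W : Submodule F (ι → F), W ≠ ⊥ → IsTotallySingularFor f W → H ≤ subspaceStabilizer W → False
  nd : ∀ W : Submodule F (ι → F), W ≠ ⊥ → IsNondegenerateOn f W → 2 * finrank F W < Fintype.card ι → H ≤ subspaceStabilizer W → False
  dec : ∀ (t k : ℕ) (D : Fin t → Submodule F (ι → F)), IsNondegenerateMDecomposition f k D → H ≤ decompositionStabilizer D → False
  pair : ∀ (k : ℕ) (D : Fin 2 → Submodule F (ι → F)), Odd (Fintype.card F) → 2 * k = Fintype.card ι → IsMDecomposition k D →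
    (∀ i, IsTotallySingularFor f (D i)) → H ≤ decompositionStabilizer D → False
  sub : ∀ (F₀ : Subfield F) (r : ℕ) (P : GL ι F) (ζ : F), r.Prime → Fintype.card F = Nat.card F₀ ^ r → ζ ≠ 0 →
    IsFormRationalStructure f F₀ ζ P → H ≤ subfieldSubgroup F₀ P → False
  cl6 : ∀ (R : Subgroup (GL ι F)) (p k : ℕ), IsSymplecticTypeGroup 2 R → ActsAbsolutelyIrreducibly (matrixSet R) →
    R ≤ similarityGroup f → p.Prime → Odd p → Fintype.card F = p → Nat.card R = 2 ^ (1 + 2 * k) →
    Nat.card (Subgroup.center R) = 2 → IsOfMinusType k R → H ≤ subgroupNormalizer R → False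
  quad : ∀ Q : (ι → F) → F, ¬ Odd (Fintype.card F) → IsNondegenerateQuadraticForm Q → (∀ u v, QuadraticMap.polar Q u v = f u v) →
    H ≤ quadSimilarityGroup Q → False
  fld₁ : ∀ (r : ℕ) (K : Subalgebra F (Matrix ι ι F)), r.Prime → IsFieldSubalgebra r K → IsSelfAdjointFor f K →
    (∀ k ∈ K, ∀ v, f (k *ᵥ v) v = 0) → H ≤ subalgebraNormalizer K → False
  fld₂ : ∀ K : Subalgebra F (Matrix ι ι F), Odd (Fintype.card F) → IsFieldSubalgebra 2 K → IsAdjointClosedFor f K →
    ¬ IsSelfAdjointFor f K → H ≤ subalgebraNormalizer K → False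
  ten : ∀ (n₁ n₂ : ℕ) (e : ι ≃ Fin n₁ × Fin n₂) (P : GL ι F) (f₁ : (Fin n₁ → F) → (Fin n₁ → F) → F) (f₂ : (Fin n₂ → F) → (Fin n₂ → F) → F),
    Odd (Fintype.card F) → 3 ≤ n₂ → IsSymplecticForm f₁ → IsSymmetricForm f₂ → IsTensorFormStructure id f f₁ f₂ e P →
    H ≤ tensorProductSubgroup n₁ n₂ e P → False
  wr : ∀ (k t : ℕ) (e : ι ≃ (Fin t → Fin k)) (P : GL ι F) (f₁ : (Fin k → F) → (Fin k → F) → F),
    Odd (Fintype.card F) → Odd t → 3 ≤ t → ¬ (Fintype.card F = 3 ∧ k = 2) → IsSymplecticForm f₁ →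
    IsTensorPowerFormStructure id f f₁ e P → H ≤ tensorWreathSubgroup k t e P → False

/-- Irreducibility. -/
theorem irr_of_noclass {f : (ι → F) → (ι → F) → F} (hf : HF (RingEquiv.refl F) (-1) f) {H : Subgroup (GL ι F)}
    (hfix : ∀ g ∈ H, ∀ u v, f ((g : Matrix ι ι F) *ᵥ u) ((g : Matrix ι ι F) *ᵥ v) = f u v) (hNo : SNoClass f H) :
    ActsIrreducibly (matrixSet H) := by
  classical
  intro W hW
  have hinv : ∀ g ∈ H, ∀ v ∈ W, (g : Matrix ι ι F) *ᵥ v ∈ W := by
    intro g hg v hv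
    exact hW _ ⟨g, hg, rfl⟩ ⟨v, hv, rfl⟩
  by_contra hcon
  push Not at hcon
  obtain ⟨hW0, hW1⟩ := hcon
  rcases reducible_cases hf H hfix hinv with ⟨W', hW', hts, hinv'⟩ | hnd
  · exact hNo.ts W' hW' hts fun g hg => (mem_subspaceStabilizer_iff_forall_mem W' g).2 (hinv' g hg)
  have hstab : H ≤ subspaceStabilizer W := fun g hg => (mem_subspaceStabilizer_iff_forall_mem W g).2 (hinv g hg)
  obtain ⟨hc, hr⟩ := perp_compl hf hnd
  have hpinv := perp_inv hf.sesq H hfix hinv
  have hstabp : H ≤ subspaceStabilizer (perp hf.sesq W) := fun g hg =>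
    (mem_subspaceStabilizer_iff_forall_mem _ g).2 (hpinv g hg)
  rcases lt_trichotomy (2 * finrank F W) (Fintype.card ι) with h | h | h
  · exact hNo.nd W hW0 hnd h hstab
  · refine hNo.dec 2 _ _ (dec_of_half hf hnd hW0 h) fun g hg => ⟨1, fun i => ?_⟩
    fin_cases i
    · exact (mem_subspaceStabilizer_iff_map_eq W g).1 (hstab hg)
    · exact (mem_subspaceStabilizer_iff_map_eq _ g).1 (hstabp hg)
  · refine hNo.nd _ ?_ (perp_nd hf hnd) (by omega) hstabp
    intro h0
    rw [h0, finrank_bot, add_zero] at hr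
    apply hW1
    apply Submodule.eq_top_of_finrank_eq
    rw [hr]
    simp

end Cfsg.Agent.Lib.AschS.Base
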