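import Mathlib
import Cfsg.Agent.Lib.AschS.Base
import Cfsg.Agent.Lib.AschF.Top

/-!
# Groups of symplectic type in the symplectic group
-/

set_option autoImplicit false

namespace Cfsg.Agent.Lib.AschS.Cl6

open Matrix Module Cfsg Cfsg.Geo
open Cfsg.Agent.Lib.Asch.Forms Cfsg.Agent.Lib.AschF.Adj Cfsg.Agent.Lib.AschS.Base
open Cfsg.Agent.Lib.Asch.SC Cfsg.Agent.Lib.Asch.XT Cfsg.Agent.Lib.AschF.Top

universe u

variable {ι : Type} [Fintype ι] [DecidableEq ι] {F : Type u} [Field F]
  {f : (ι → F) → (ι → F) → F}

section Compl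

variable {G : Type*} [Group G] [Finite G]

/-- A complement to an element of an elementary abelian group. -/
theorem exists_compl (A : Subgroup G) (hcomm : ∀ x ∈ A, ∀ y ∈ A, x * y = y * x) (hinv : ∀ x ∈ A, x * x = 1)
    {a : G} (ha : a ∈ A) (ha1 : a ≠ 1) :
    ∃ K : Subgroup G, K ≤ A ∧ a ∉ K ∧ Nat.card A ≤ 2 * Nat.card K := by
  classical
  let S : Set (Subgroup G) := {K | K ≤ A ∧ a ∉ K}
  have hS : S.Nonempty := ⟨⊥, bot_le, fun h => ha1 (by simpa using h)⟩
  obtain ⟨K, hK⟩ := S.toFinite.exists_maximal hS
  obtain ⟨⟨hKA, haK⟩, hmax⟩ := hK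
  refine ⟨K, hKA, haK, ?_⟩
  have hcov : ∀ g ∈ A, g ∈ K ∨ a * g ∈ K := by
    intro g hg
    by_cases hgK : g ∈ K
    · exact Or.inl hgK
    right
    let K' : Subgroup G :=
      { carrier := {x | x ∈ K ∨ g * x ∈ K}
        mul_mem' := by
          rintro x y (hx | hx) (hy | hy)
          · exact Or.inl (K.mul_mem hx hy)
          · right
            have h1 : g * (x * y) = x * (g * y) := by
              rw [← mul_assoc, hcomm g hg x (hKA hx), mul_assoc]
            rw [h1]
            exact K.mul_mem hx hy
          · right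
            rw [← mul_assoc]
            exact K.mul_mem hx hy
          · left
            have hxA : x ∈ A := by
              have := A.mul_mem hg (hKA hx)
              rwa [← mul_assoc, hinv g hg, one_mul] at this
            have hyA : y ∈ A := by
              have := A.mul_mem hg (hKA hy)
              rwa [← mul_assoc, hinv g hg, one_mul] at this
            have h1 : x * y = (g * x) * (g * y) := by
              rw [mul_assoc, ← mul_assoc x, hcomm x hxA g hg, mul_assoc, ← mul_assoc, hinv g hg, one_mul]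
            rw [h1]
            exact K.mul_mem hx hy
        one_mem' := Or.inl K.one_mem
        inv_mem' := by
          rintro x (hx | hx)
          · exact Or.inl (K.inv_mem hx)
          · right
            have hxA : x ∈ A := by
              have := A.mul_mem hg (hKA hx)
              rwa [← mul_assoc, hinv g hg, one_mul] at this
            have h1 : g * x⁻¹ = (g * x)⁻¹ := by
              have h3 : x⁻¹ = x := inv_eq_of_mul_eq_one_left (hinv x hxA)
              have h4 : g⁻¹ = g := inv_eq_of_mul_eq_one_left (hinv g hg)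
              rw [_root_.mul_inv_rev, h3, h4, hcomm g hg x hxA]
            rw [h1]
            exact K.inv_mem hx }
    have hK'A : K' ≤ A := by
      rintro x (hx | hx)
      · exact hKA hx
      · have := A.mul_mem hg (hKA hx)
        rwa [← mul_assoc, hinv g hg, one_mul] at this
    have hKK' : K ≤ K' := fun x hx => Or.inl hx
    by_contra hag
    have haK' : a ∉ K' := by
      rintro (h1 | h1)
      · exact haK h1
      · apply hag
        rwa [hcomm a ha g hg]
    have h1 := hmax ⟨hK'A, haK'⟩ hKK'
    apply hgK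
    apply h1
    right
    rw [hinv g hg]
    exact K.one_mem
  let φ : A → K ⊕ K := fun x =>
    if h : (x : G) ∈ K then Sum.inl ⟨x, h⟩ else Sum.inr ⟨a * x, (hcov x x.2).resolve_left h⟩
  have hinj : Function.Injective φ := by
    intro x y hxy
    simp only [φ] at hxy
    by_cases hx : (x : G) ∈ K <;> by_cases hy : (y : G) ∈ K
    · rw [dif_pos hx, dif_pos hy] at hxy
      apply Subtype.ext
      have := Sum.inl.inj hxy
      exact congrArg (fun t : K => (t : G)) this
    · rw [dif_pos hx, dif_neg hy] at hxy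
      exact absurd hxy (by simp)
    · rw [dif_neg hx, dif_pos hy] at hxy
      exact absurd hxy (by simp)
    · rw [dif_neg hx, dif_neg hy] at hxy
      apply Subtype.ext
      have := Sum.inr.inj hxy
      exact mul_left_cancel (congrArg (fun t : K => (t : G)) this)
  have h1 := Nat.card_le_card_of_injective φ hinj
  rw [Nat.card_sum] at h1
  omega

end Compl

section Rank

/-- Ranks of orthogonal idempotents. -/
theorem rank_add_le {a b : Matrix ι ι F} (haa : a * a = a) (hbb : b * b = b) (hab : a * b = 0) (hba : b * a = 0) :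
    a.rank + b.rank ≤ (a + b).rank := by
  classical
  have hdisj : LinearMap.range (Matrix.mulVecLin a) ⊓ LinearMap.range (Matrix.mulVecLin b) = ⊥ := by
    rw [eq_bot_iff]
    rintro x ⟨⟨u, rfl⟩, ⟨v, hv⟩⟩
    have h1 : a *ᵥ (a *ᵥ u) = a *ᵥ u := by rw [Matrix.mulVec_mulVec, haa]
    have hv' : b *ᵥ v = a *ᵥ u := hv
    have h2 : a *ᵥ (b *ᵥ v) = 0 := by rw [Matrix.mulVec_mulVec, hab, Matrix.zero_mulVec]
    rw [hv', h1] at h2
    simpa using h2
  have hle : LinearMap.range (Matrix.mulVecLin a) ⊔ LinearMap.range (Matrix.mulVecLin b) ≤ LinearMap.range (Matrix.mulVecLin (a + b)) := by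
    apply sup_le
    · rintro _ ⟨u, rfl⟩
      refine ⟨a *ᵥ u, ?_⟩
      simp only [Matrix.mulVecLin_apply]
      rw [Matrix.mulVec_mulVec, add_mul, haa, hba, add_zero]
    · rintro _ ⟨u, rfl⟩
      refine ⟨b *ᵥ u, ?_⟩
      simp only [Matrix.mulVecLin_apply]
      rw [Matrix.mulVec_mulVec, add_mul, hbb, hab, zero_add]
  have h1 := Submodule.finrank_sup_add_finrank_inf_eq (LinearMap.range (Matrix.mulVecLin a)) (LinearMap.range (Matrix.mulVecLin b))
  rw [hdisj, finrank_bot, add_zero] at h1
  have h2 := Submodule.finrank_mono hle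
  simp only [Matrix.rank]
  omega

theorem E_mul {a b : Matrix ι ι F} (haa : a * a = a) (hab : a * b = b) (hba : b * a = b) (hbb : b * b = a) (s t : F) :
    ((2⁻¹ : F) • (a + s • b)) * ((2⁻¹ : F) • (a + t • b)) = (2⁻¹ * 2⁻¹ * (1 + s * t) : F) • a + (2⁻¹ * 2⁻¹ * (s + t) : F) • b := by
  simp only [Matrix.smul_mul, Matrix.mul_smul, add_mul, mul_add, haa, hab, hba, hbb, smul_add, smul_smul]
  module

variable [Finite F]

/-- The rank of an idempotent from a group of commuting isometric involutions with vanishing traces. -/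
theorem rank_bound (hf : HF (RingEquiv.refl F) (-1) f) (halt : ∀ v, f v v = 0) (h2 : (2 : F) ≠ 0) (N : ℕ) :
    ∀ G : Subgroup (GL ι F), Nat.card G = N → (∀ x ∈ G, ∀ y ∈ G, x * y = y * x) → (∀ x ∈ G, x * x = 1) →
      (∀ x ∈ G, ∀ u v, f ((x : Matrix ι ι F) *ᵥ u) ((x : Matrix ι ι F) *ᵥ v) = f u v) →
      ∀ e : Matrix ι ι F, e * e = e → (∀ g ∈ G, e * (g : Matrix ι ι F) = (g : Matrix ι ι F) * e) →
        (∀ u v, f (e *ᵥ u) v = f u (e *ᵥ v)) → Matrix.trace e ≠ 0 →
        (∀ g ∈ G, g ≠ 1 → Matrix.trace (e * (g : Matrix ι ι F)) = 0) → 2 * N ≤ e.rank := by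
  classical
  induction N using Nat.strong_induction_on with
  | _ N ih =>
    intro G hN hcomm hinv hiso e hee heG hes htr htrG
    have hAd : ∀ (g : GL ι F), g ∈ G → ∀ u v, f ((g : Matrix ι ι F) *ᵥ u) v = f u ((g : Matrix ι ι F) *ᵥ v) := by
      intro g hg u v
      have h3 : (g : Matrix ι ι F) *ᵥ ((g : Matrix ι ι F) *ᵥ v) = v := by
        rw [Matrix.mulVec_mulVec, ← Units.val_mul, hinv g hg, Units.val_one, Matrix.one_mulVec]
      conv_lhs => rw [← h3]
      exact hiso g hg _ _
    by_cases hex : ∃ a ∈ G, a ≠ 1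
    · obtain ⟨a, haG, ha1⟩ := hex
      obtain ⟨K, hKG, haK, hcard⟩ := exists_compl G hcomm hinv haG ha1
      have hKN : Nat.card K < N := by
        rw [← hN]
        haveI : Fintype K := Fintype.ofFinite K
        haveI : Fintype G := Fintype.ofFinite G
        rw [Nat.card_eq_fintype_card, Nat.card_eq_fintype_card]
        exact Fintype.card_lt_of_injective_of_notMem (fun x : K => (⟨x, hKG x.2⟩ : G))
          (fun x y hxy => Subtype.ext (congrArg (fun t : G => (t : GL ι F)) hxy)) (b := ⟨a, haG⟩) (by
            rintro ⟨x, hx⟩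
            apply haK
            have : (x : GL ι F) = a := congrArg (fun t : G => (t : GL ι F)) hx
            rw [← this]
            exact x.2)
      set am : Matrix ι ι F := (a : Matrix ι ι F) with ham
      have haa : am * am = 1 := by
        rw [ham, ← Units.val_mul, hinv a haG, Units.val_one]
      have hea : e * am = am * e := heG a haG
      -- the two idempotents
      have haa' : e * e = e := hee
      have hab' : e * (e * am) = e * am := by rw [← mul_assoc, hee]
      have hba' : e * am * e = e * am := by rw [mul_assoc, ← hea, ← mul_assoc, hee]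
      have hbb' : e * am * (e * am) = e := by
        rw [mul_assoc e am, ← mul_assoc am, ← hea, mul_assoc e am am, haa, mul_one, hee]
      have h21 : (2 : F)⁻¹ + 2⁻¹ = 1 := by
        field_simp
        norm_num
      have hgen : ∀ s : F, s * s = 1 → 2 * Nat.card K ≤ ((2⁻¹ : F) • (e + s • (e * am))).rank := by
        intro s hs
        set e' : Matrix ι ι F := (2⁻¹ : F) • (e + s • (e * am)) with he'
        refine ih (Nat.card K) hKN K rfl (fun x hx y hy => hcomm x (hKG hx) y (hKG hy)) (fun x hx => hinv x (hKG hx))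
          (fun x hx => hiso x (hKG hx)) e' ?_ ?_ ?_ ?_ ?_
        · rw [he', E_mul haa' hab' hba' hbb', hs]
          rw [smul_add, smul_smul]
          congr 2
          · field_simp
            norm_num
          · field_simp
            ring
        · intro g hg
          have hga : am * (g : Matrix ι ι F) = (g : Matrix ι ι F) * am := by
            rw [ham, ← Units.val_mul, ← Units.val_mul, hcomm a haG g (hKG hg)]
          have hge := heG g (hKG hg)
          rw [he', Matrix.smul_mul, Matrix.mul_smul, add_mul, mul_add, Matrix.smul_mul, Matrix.mul_smul, hge]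
          congr 3
          rw [mul_assoc, hga, ← mul_assoc, hge, mul_assoc]
        · intro u v
          have h3 : f ((e * am) *ᵥ u) v = f u ((e * am) *ᵥ v) := by
            rw [← Matrix.mulVec_mulVec, hes, hAd a haG, Matrix.mulVec_mulVec, ← hea]
          rw [he']
          simp only [Matrix.smul_mulVec, Matrix.add_mulVec, hf.sesq.smul_left, hf.sesq.add_left,
            hf.sesq.smul_right, hf.sesq.add_right, RingEquiv.refl_apply, hes, h3]
        · rw [he', Matrix.trace_smul, Matrix.trace_add, Matrix.trace_smul, htrG a haG ha1, smul_zero, add_zero, smul_eq_mul]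
          exact mul_ne_zero (inv_ne_zero h2) htr
        · intro g hg hg1
          have hag1 : a * g ≠ 1 := by
            intro h3
            apply haK
            have h4 : a = g := by
              have h5 : g⁻¹ = g := inv_eq_of_mul_eq_one_left (hinv g (hKG hg))
              rw [← h5]
              exact eq_inv_of_mul_eq_one_left h3
            rw [h4]
            exact hg
          have h3 := htrG (a * g) (G.mul_mem haG (hKG hg)) hag1
          have h4 := htrG g (hKG hg) hg1
          rw [Units.val_mul] at h3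
          rw [he', Matrix.smul_mul, Matrix.trace_smul, add_mul, Matrix.trace_add, Matrix.smul_mul, Matrix.trace_smul, mul_assoc e, h3, h4]
          simp
      have h3 := hgen 1 (by ring)
      have h4 := hgen (-1) (by ring)
      have h6 : (2⁻¹ : F) • (e + (1 : F) • (e * am)) + (2⁻¹ : F) • (e + (-1 : F) • (e * am)) = e := by
        rw [neg_smul, one_smul, smul_add, smul_add, smul_neg]
        have : (2⁻¹ : F) • e + (2⁻¹ : F) • (e * am) + ((2⁻¹ : F) • e + -((2⁻¹ : F) • (e * am))) = ((2⁻¹ : F) • e + (2⁻¹ : F) • e) := by abel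
        rw [this, ← add_smul, h21, one_smul]
      have h5 := rank_add_le (a := (2⁻¹ : F) • (e + (1 : F) • (e * am))) (b := (2⁻¹ : F) • (e + (-1 : F) • (e * am)))
        (by
          rw [E_mul haa' hab' hba' hbb', smul_add, smul_smul]
          congr 2
          · field_simp
            norm_num
          · field_simp
            norm_num)
        (by
          rw [E_mul haa' hab' hba' hbb', smul_add, smul_smul]
          congr 2
          · field_simp
            norm_num
          · field_simp
            norm_num)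
        (by
          rw [E_mul haa' hab' hba' hbb']
          simp)
        (by
          rw [E_mul haa' hab' hba' hbb']
          simp)
      rw [h6] at h5
      omega
    · push Not at hex
      have hN1 : N = 1 := by
        rw [← hN]
        rw [Nat.card_eq_one_iff_unique]
        exact ⟨⟨fun x y => Subtype.ext (by rw [hex x x.2, hex y y.2])⟩, ⟨1⟩⟩
      subst hN1
      -- a pair of vectors
      have he0 : e ≠ 0 := by
        rintro rfl
        exact htr (Matrix.trace_zero _ _)
      obtain ⟨j, hj⟩ : ∃ j, e *ᵥ Pi.single j 1 ≠ 0 := by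
        by_contra hcon
        push Not at hcon
        apply he0
        apply Matrix.ext_of_mulVec_single
        intro j
        rw [hcon, Matrix.zero_mulVec]
      obtain ⟨⟨u, hu⟩, -⟩ := hf.nd _ hj
      set y := e *ᵥ Pi.single j 1 with hy
      have hey : e *ᵥ y = y := by
        rw [hy, Matrix.mulVec_mulVec, hee]
      have hxy : f (e *ᵥ u) y ≠ 0 := by
        rw [hes, hey]
        exact hu
      set x := e *ᵥ u with hx
      have hyx : f y x ≠ 0 := fun h => hxy (hf.refl h)
      have hli : LinearIndependent F ![x, y] := by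
        rw [LinearIndependent.pair_iff]
        intro s t hst
        have h3 := congrArg (fun w => f w y) hst
        have h4 := congrArg (fun w => f x w) hst
        simp only [hf.sesq.add_left, hf.sesq.smul_left, hf.sesq.add_right, hf.sesq.smul_right, RingEquiv.refl_apply, halt, mul_zero, add_zero, zero_add, Sesq_zero_left hf.sesq, Sesq_zero_right hf.sesq] at h3 h4
        exact ⟨(mul_eq_zero.1 h3).resolve_right hxy, (mul_eq_zero.1 h4).resolve_right hxy⟩
      have h3 := finrank_span_eq_card hli
      rw [Fintype.card_fin] at h3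
      have h4 : Submodule.span F (Set.range ![x, y]) ≤ LinearMap.range (Matrix.mulVecLin e) := by
        rw [Submodule.span_le]
        rintro _ ⟨i, rfl⟩
        fin_cases i
        · exact ⟨u, rfl⟩
        · exact ⟨_, rfl⟩
      have h5 := Submodule.finrank_mono h4
      rw [h3] at h5
      simpa [Matrix.rank] using h5

end Rank

/-- Commutator data of a group of isometries of exponent dividing four. -/
theorem sc_data [Nonempty ι] (hf : HF (RingEquiv.refl F) (-1) f) {R : Subgroup (GL ι F)}
    (hRiso : ∀ x ∈ R, ∀ u v, f ((x : Matrix ι ι F) *ᵥ u) ((x : Matrix ι ι F) *ᵥ v) = f u v)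
    (hA : ActsAbsolutelyIrreducibly (matrixSet R)) (hSC : ScC R) (hcard2 : 2 ≤ Fintype.card ι)
    (h2' : ∀ x ∈ R, ∃ m : Fˣ, m ^ 2 = 1 ∧ x ^ 2 = sc m) :
    (2 : F) ≠ 0 ∧ (sc (-1) : GL ι F) ∈ R ∧ (∀ x ∈ R, x ∈ scalars ι F → x = 1 ∨ x = sc (-1)) ∧ ∃ g ∈ R, g ^ 2 ≠ 1 := by
  classical
  obtain ⟨x, hx, y, hy, c, hc1, hcR, hyx⟩ := exists_comm_elt' hcard2 hA hSC
  obtain ⟨m, hm, hxm⟩ := h2' x hx
  have hx2c : ∀ g, x ^ 2 * g = g * x ^ 2 := by
    intro g
    rw [hxm]
    exact sc_comm m g
  have hc2 : (sc c : GL ι F) ^ 2 = 1 := Cfsg.Agent.Lib.Asch.XS.gp_comm_pow (sc_comm c) hyx hx2c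
  have hcc : c ^ 2 = 1 := sc_inj (ι := ι) (by rw [map_pow, hc2, map_one])
  have hcF : (c : F) ^ 2 = 1 := by
    have := congrArg Units.val hcc
    simpa using this
  have hc1F : (c : F) ≠ 1 := fun h => hc1 (Units.ext h)
  have hcn : (c : F) = -1 := by
    have h3 : ((c : F) - 1) * ((c : F) + 1) = 0 := by linear_combination hcF
    rcases mul_eq_zero.1 h3 with h4 | h4
    · exact absurd (sub_eq_zero.1 h4) hc1F
    · linear_combination h4
  have hcu : c = -1 := Units.ext (by rw [hcn]; simp)
  subst hcu
  have hne : (-1 : F) ≠ 1 := by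
    rw [← hcn]
    exact hc1F
  have h2F : (2 : F) ≠ 0 := by
    intro h
    apply hne
    linear_combination -h
  refine ⟨h2F, hcR, ?_, ?_⟩
  · rintro g hg ⟨d, rfl⟩
    obtain ⟨i₀⟩ := ‹Nonempty ι›
    have he : (Pi.single i₀ 1 : ι → F) ≠ 0 := by
      intro h0
      have := congrFun h0 i₀
      simp at this
    obtain ⟨⟨z, hz⟩, -⟩ := hf.nd _ he
    have h3 := hRiso _ hg z (Pi.single i₀ 1)
    have h4 : ((Units.map (Matrix.scalar ι : F →+* Matrix ι ι F).toMonoidHom d : GL ι F) : Matrix ι ι F) = (d : F) • 1 := sc_val d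
    rw [h4, Matrix.smul_mulVec, Matrix.smul_mulVec, Matrix.one_mulVec, Matrix.one_mulVec, hf.sesq.smul_left, hf.sesq.smul_right, RingEquiv.refl_apply] at h3
    have h5 : ((d : F) * d - 1) * f z (Pi.single i₀ 1) = 0 := by linear_combination h3
    have h6 := (mul_eq_zero.1 h5).resolve_right hz
    have h7 : ((d : F) - 1) * ((d : F) + 1) = 0 := by linear_combination h6
    rcases mul_eq_zero.1 h7 with h8 | h8
    · left
      have : d = 1 := Units.ext (sub_eq_zero.1 h8)
      rw [this]
      simp
    · right
      have : d = -1 := Units.ext (by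
        rw [Units.val_neg, Units.val_one]
        linear_combination h8)
      rw [this]
      rfl
  · by_contra hcon
    push Not at hcon
    have h1 := hcon x hx
    have h3 := hcon y hy
    have h4 := hcon (x * y) (R.mul_mem hx hy)
    apply hc1
    apply sc_inj (ι := ι)
    rw [map_one]
    have h5 : y * x = x * y := by
      have h6 : (x * y) * (x * y) = 1 := by rw [← pow_two, h4]
      have h7 : x * x = 1 := by rw [← pow_two, h1]
      have h8 : y * y = 1 := by rw [← pow_two, h3]
      calc y * x = (x * x) * (y * x) * (y * y) := by rw [h7, h8, one_mul, mul_one]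
        _ = x * ((x * y) * (x * y)) * y := by simp only [mul_assoc]
        _ = x * y := by rw [h6, mul_one]
    rw [h5] at hyx
    have h6 : (sc (-1) : GL ι F) * (x * y) = 1 * (x * y) := by rw [← hyx, one_mul]
    exact mul_right_cancel h6

/-- The centre has order two. -/
theorem card_center_two [Nonempty ι] [Finite F] {R : Subgroup (GL ι F)} (hA : ActsAbsolutelyIrreducibly (matrixSet R))
    (hne : (sc (-1) : GL ι F) ≠ 1) (hm : (sc (-1) : GL ι F) ∈ R) (hZ : ∀ x ∈ R, x ∈ scalars ι F → x = 1 ∨ x = sc (-1)) :
    Nat.card (Subgroup.center R) = 2 := by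
  classical
  have hmem : ∀ x : R, x ∈ Subgroup.center R ↔ (x : GL ι F) ∈ scalars ι F := by
    intro x
    rw [center_eq hA, Subgroup.mem_subgroupOf]
  rw [Nat.card_eq_two_iff]
  let a : Subgroup.center R := 1
  let b : Subgroup.center R := ⟨⟨sc (-1), hm⟩, (hmem _).2 (sc_mem _)⟩
  refine ⟨a, b, ?_, ?_⟩
  · intro h
    have := congrArg (fun t : Subgroup.center R => ((t : R) : GL ι F)) h
    exact hne this.symm
  · ext x
    simp only [Set.mem_insert_iff, Set.mem_singleton_iff, Set.mem_univ, iff_true]
    rcases hZ _ (x : R).2 ((hmem _).1 x.2) with h | h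
    · left
      exact Subtype.ext (Subtype.ext h)
    · right
      exact Subtype.ext (Subtype.ext h)

variable [Fintype F]

/-- The class of groups of symplectic type. -/
theorem cl6_core [Nonempty ι] (hf : HF (RingEquiv.refl F) (-1) f) (halt : ∀ v, f v v = 0) {H : Subgroup (GL ι F)} (hNo : SNoClass f H) {p : ℕ}
    (hp : Fintype.card F = p) (hpp : p.Prime) (hodd : Odd p) {R : Subgroup (GL ι F)}
    (hRiso : ∀ x ∈ R, ∀ u v, f ((x : Matrix ι ι F) *ᵥ u) ((x : Matrix ι ι F) *ᵥ v) = f u v)
    (hA : ActsAbsolutelyIrreducibly (matrixSet R)) (hSC : ScC R) (hcard2 : 2 ≤ Fintype.card ι)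
    (h2' : ∀ x ∈ R, ∃ m : Fˣ, m ^ 2 = 1 ∧ x ^ 2 = sc m) (hN : H ≤ subgroupNormalizer R)
    (hcyc : ∀ A : Subgroup R, A.Characteristic → IsMulCommutative A → IsCyclic A) : False := by
  classical
  obtain ⟨h2, hm, hZ, g, hg, hg2⟩ := sc_data hf hRiso hA hSC hcard2 h2'
  have hne : (sc (-1) : GL ι F) ≠ 1 := by
    intro h
    have h5 : (-1 : Fˣ) = 1 := sc_inj (ι := ι) (by rw [h, map_one])
    have h6 := congrArg Units.val h5
    apply h2
    simp only [Units.val_neg, Units.val_one] at h6
    linear_combination -h6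
  have hcen := card_center_two hA hne hm hZ
  have hx4 : ∀ x ∈ R, x ^ 4 = 1 := by
    intro a ha
    obtain ⟨m', hm', ham⟩ := h2' a ha
    calc a ^ 4 = (a ^ 2) ^ 2 := by rw [← pow_mul]
      _ = 1 := by rw [ham, ← map_pow, hm', map_one]
  have hP : IsPGroup 2 R := fun x => ⟨2, by
    exact Subtype.ext (by simpa using hx4 x x.2)⟩
  obtain ⟨k, hk, hcard⟩ := card_of_center hA hSC Nat.prime_two hP (a := 1) (by rw [hcen]; rfl)
  have hexp : Monoid.exponent R = 2 * Nat.gcd 2 2 := by
    rw [Nat.gcd_self]
    apply Nat.dvd_antisymm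
    · apply Monoid.exponent_dvd_of_forall_pow_eq_one
      intro t
      exact Subtype.ext (by simpa using hx4 t t.2)
    · haveI : Fact (Nat.Prime 2) := ⟨Nat.prime_two⟩
      have hord : orderOf (⟨g, hg⟩ : R) = 2 ^ 2 := by
        refine orderOf_eq_prime_pow (p := 2) (n := 1) ?_ ?_
        · intro h
          apply hg2
          have := congrArg Subtype.val h
          simpa using this
        · exact Subtype.ext (by simpa using hx4 g hg)
      have := Monoid.order_dvd_exponent (⟨g, hg⟩ : R)
      rwa [hord] at this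
  have hsim : R ≤ similarityGroup f := fun x hx' =>
    ⟨1, fun u v => by
      rw [Units.val_one, one_mul]
      exact hRiso x hx' u v⟩
  refine hNo.cl6 R p k ⟨Nat.prime_two, hP, hcyc, hexp⟩ hA hsim hpp hodd hp hcard hcen ?_ hN
  -- minus type
  intro A hAc hAi
  let A' : Subgroup (GL ι F) := A.map R.subtype
  have hcA : Nat.card A' = Nat.card A := (Nat.card_congr (A.equivMapOfInjective _ Subtype.val_injective).toEquiv).symm
  have hA'R : A' ≤ R := by
    rintro _ ⟨a, -, rfl⟩
    exact a.2
  have hcomm : ∀ a ∈ A', ∀ b ∈ A', a * b = b * a := by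
    rintro _ ⟨a, ha, rfl⟩ _ ⟨b, hb, rfl⟩
    have := hAc.is_comm.comm (⟨a, ha⟩ : A) ⟨b, hb⟩
    exact congrArg (fun t : A => (t : R).1) this
  have hinv : ∀ a ∈ A', a * a = 1 := by
    rintro _ ⟨a, ha, rfl⟩
    have := hAi a ha
    exact congrArg Subtype.val this
  have hn := card_ne_zero hA hSC
  have key : ∀ K : Subgroup (GL ι F), K ≤ A' → (sc (-1) : GL ι F) ∉ K → 2 * Nat.card K ≤ 2 ^ k := by
    intro K hKA hmK
    have h3 := rank_bound hf halt h2 (Nat.card K) K rfl (fun x hx y hy => hcomm x (hKA hx) y (hKA hy)) (fun x hx => hinv x (hKA hx))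
      (fun x hx => hRiso x (hA'R (hKA hx))) 1 (one_mul 1) (fun g _ => by rw [one_mul, mul_one]) (fun u v => by simp) (by
        rw [Matrix.trace_one]
        exact hn) (fun g hg hg1 => by
        rw [one_mul]
        refine trace_eq_zero hA hSC (hA'R (hKA hg)) fun hgZ => ?_
        rcases hZ g (hA'R (hKA hg)) hgZ with h5 | h5
        · exact hg1 h5
        · exact hmK (h5 ▸ hg))
    rwa [Matrix.rank_one, hk] at h3
  have hpow : 2 ^ (k + 1) = 2 * 2 ^ k := by ring
  have hpos : 0 < 2 ^ k := by positivity
  rw [← hcA, hpow]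
  by_cases hmA : (sc (-1) : GL ι F) ∈ A'
  · obtain ⟨K, hKA, hmK, hc⟩ := exists_compl A' hcomm hinv hmA hne
    have := key K hKA hmK
    omega
  · have := key A' le_rfl hmA
    omega

end Cfsg.Agent.Lib.AschS.Cl6
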