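import Mathlib
import Cfsg.Agent.Lib.Asch.XT

/-!
# Groups with scalar commutators and scalars `±1` are realisable over the prime field
-/

set_option autoImplicit false

namespace Cfsg.Agent.Lib.AschS.Desc

open Matrix Module Cfsg Cfsg.Geo
open Cfsg.Agent.Lib.Asch.SC Cfsg.Agent.Lib.Asch.XT Cfsg.Agent.Lib.Asch.FieldSub

universe u

variable {ι : Type} [Fintype ι] [DecidableEq ι] {F : Type u} [Field F]

section Gen

variable (τ : F →+* F)

/-- Partial norms of a matrix. -/
noncomputable def Nm (C : Matrix ι ι F) : ℕ → Matrix ι ι F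
  | 0 => 1
  | k + 1 => C * (Nm C k).map τ

theorem Nm_succ (C : Matrix ι ι F) (k : ℕ) : Nm τ C (k + 1) = C * (Nm τ C k).map τ := rfl

theorem map_iter (X : Matrix ι ι F) (k : ℕ) : (X.map (τ^[k])).map τ = X.map (τ^[k + 1]) := by
  ext i j
  simp only [Matrix.map_apply, Function.iterate_succ_apply']

theorem map_one' : (1 : Matrix ι ι F).map τ = 1 := Matrix.map_one τ (map_zero τ) (map_one τ)

theorem Nm_succ_right (C : Matrix ι ι F) (k : ℕ) : Nm τ C (k + 1) = Nm τ C k * C.map (τ^[k]) := by
  induction k with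
  | zero =>
    simp only [Nm, map_one', Function.iterate_zero]
    simp
  | succ k ih =>
    calc Nm τ C (k + 1 + 1) = C * (Nm τ C (k + 1)).map τ := rfl
      _ = C * ((Nm τ C k * C.map (τ^[k])).map τ) := by rw [ih]
      _ = C * ((Nm τ C k).map τ * C.map (τ^[k + 1])) := by rw [Matrix.map_mul, map_iter]
      _ = Nm τ C (k + 1) * C.map (τ^[k + 1]) := by rw [← mul_assoc, Nm_succ]

theorem Nm_comm {C s : Matrix ι ι F} (h : s * C = C * s.map τ) (k : ℕ) : s * Nm τ C k = Nm τ C k * s.map (τ^[k]) := by
  induction k with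
  | zero =>
    simp only [Nm, Function.iterate_zero]
    simp
  | succ k ih =>
    rw [Nm_succ, ← mul_assoc, h, mul_assoc, ← Matrix.map_mul, ih, Matrix.map_mul, map_iter, mul_assoc]

theorem Nm_scale (c : F) (C : Matrix ι ι F) (k : ℕ) :
    Nm τ (c • C) k = (∏ i ∈ Finset.range k, τ^[i] c) • Nm τ C k := by
  induction k with
  | zero => simp [Nm]
  | succ k ih =>
    have h1 : (((∏ i ∈ Finset.range k, τ^[i] c) • Nm τ C k).map τ) = τ (∏ i ∈ Finset.range k, τ^[i] c) • (Nm τ C k).map τ := by
      ext i j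
      simp
    rw [Nm_succ, ih, h1, Nm_succ, Matrix.smul_mul, Matrix.mul_smul, smul_smul, Finset.prod_range_succ', map_prod]
    simp only [Function.iterate_succ_apply', Function.iterate_zero, id]
    congr 1
    rw [mul_comm]

theorem comp_mulVec' (X : Matrix ι ι F) (v : ι → F) : τ ∘ (X *ᵥ v) = X.map τ *ᵥ (τ ∘ v) := by
  funext i
  exact RingHom.map_mulVec τ X v i

end Gen

variable [Fintype F] {p E : ℕ} [hp : Fact p.Prime] [hc : CharP F p]

theorem iter_pow (a : F) (k : ℕ) : (frobenius F p)^[k] a = a ^ p ^ k := iterate_frobenius p k a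

theorem iter_card (hE : Fintype.card F = p ^ E) (a : F) : (frobenius F p)^[E] a = a := by
  rw [iter_pow, ← hE, FiniteField.pow_card]

/-- The norm is surjective. -/
theorem exists_norm (hE : Fintype.card F = p ^ E) {l : F} (hl0 : l ≠ 0) (hl : l ^ p = l) :
    ∃ c : F, c ≠ 0 ∧ ∏ i ∈ Finset.range E, c ^ p ^ i = l := by
  classical
  obtain ⟨ζ, hζ⟩ := IsCyclic.exists_generator (α := Fˣ)
  let lu : Fˣ := Units.mk0 l hl0
  obtain ⟨j, hj⟩ : ∃ j : ℕ, ζ ^ j = lu := by
    have := mem_powers_iff_mem_zpowers.2 (hζ lu)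
    obtain ⟨j, hj⟩ := this
    exact ⟨j, hj⟩
  have hp2 : 2 ≤ p := hp.out.two_le
  let M : ℕ := ∑ i ∈ Finset.range E, p ^ i
  have hM : M * (p - 1) + 1 = p ^ E := by
    have h1 := geom_sum_mul_add (p - 1) E
    rw [Nat.sub_add_cancel (by omega)] at h1
    exact h1
  have hord : orderOf ζ = M * (p - 1) := by
    rw [orderOf_eq_card_of_forall_mem_zpowers hζ, Nat.card_eq_fintype_card, Fintype.card_units, hE]
    omega
  have hlu : lu ^ (p - 1) = 1 := by
    apply Units.ext
    rw [Units.val_pow_eq_pow_val, Units.val_one, Units.val_mk0]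
    have h3 : l ^ (p - 1) * l = 1 * l := by
      rw [← pow_succ, Nat.sub_add_cancel (by omega), hl, one_mul]
    exact mul_right_cancel₀ hl0 h3
  have hdvd : M * (p - 1) ∣ j * (p - 1) := by
    rw [← hord, orderOf_dvd_iff_pow_eq_one, pow_mul, hj, hlu]
  have hdvd' : M ∣ j := Nat.dvd_of_mul_dvd_mul_right (by omega) hdvd
  obtain ⟨j', rfl⟩ := hdvd'
  refine ⟨((ζ ^ j' : Fˣ) : F), Units.ne_zero _, ?_⟩
  rw [Finset.prod_pow_eq_pow_sum]
  have h5 : (ζ ^ j') ^ M = lu := by
    rw [← pow_mul, mul_comm]
    exact hj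
  have := congrArg Units.val h5
  rwa [Units.val_pow_eq_pow_val] at this

/-- A solution of the norm-one equation gives a basis of fixed vectors. -/
theorem exists_fixed_basis (hE : Fintype.card F = p ^ E) (hE0 : 0 < E) {C : Matrix ι ι F} (hN : Nm (frobenius F p) C E = 1) :
    ∃ D : GL ι F, C * (D : Matrix ι ι F).map (frobenius F p) = D := by
  classical
  set τ : F →+* F := frobenius F p with hτ
  let T : (ι → F) → (ι → F) := fun v => C *ᵥ (τ ∘ v)
  have hTadd : ∀ u v, T (u + v) = T u + T v := by
    intro u v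
    simp only [T]
    rw [← Matrix.mulVec_add]
    congr 1
    funext i
    simp
  have hT0 : T 0 = 0 := by
    simp only [T]
    have : τ ∘ (0 : ι → F) = 0 := by
      funext i
      simp
    rw [this, Matrix.mulVec_zero]
  have hTsm : ∀ (a : F) v, T (a • v) = τ a • T v := by
    intro a v
    simp only [T]
    rw [← Matrix.mulVec_smul]
    congr 1
    funext i
    simp
  have hTit : ∀ (k : ℕ) (v : ι → F), T^[k] v = Nm τ C k *ᵥ (τ^[k] ∘ v) := by
    intro k v
    induction k with
    | zero => simp [Nm]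
    | succ k ih =>
      rw [Function.iterate_succ_apply', ih, Nm_succ]
      simp only [T]
      rw [comp_mulVec', Matrix.mulVec_mulVec]
      congr 1
      funext i
      simp only [Function.comp_apply, Function.iterate_succ_apply']
  have hTE : ∀ v, T^[E] v = v := by
    intro v
    rw [hTit, hN, Matrix.one_mulVec]
    funext i
    exact iter_card hE _
  have hTits : ∀ (k : ℕ) (a : F) (v : ι → F), T^[k] (a • v) = a ^ p ^ k • T^[k] v := by
    intro k a v
    induction k with
    | zero => simp
    | succ k ih =>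
      rw [Function.iterate_succ_apply', Function.iterate_succ_apply', ih, hTsm]
      congr 1
      rw [hτ, frobenius_def, ← pow_mul, pow_succ]
  have hTsum : ∀ (s : Finset ℕ) (g : ℕ → ι → F), T (∑ i ∈ s, g i) = ∑ i ∈ s, T (g i) := by
    intro s g
    induction s using Finset.induction_on with
    | empty => simpa using hT0
    | insert a s ha ih => rw [Finset.sum_insert ha, Finset.sum_insert ha, hTadd, ih]
  let V₀ : Set (ι → F) := {w | T w = w}
  have hP : ∀ (a : F) (v : ι → F), (∑ i ∈ Finset.range E, T^[i] (a • v)) ∈ V₀ := by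
    intro a v
    change T _ = _
    rw [hTsum]
    simp only [← Function.iterate_succ_apply' T]
    have h1 := Finset.sum_range_succ (fun i => T^[i] (a • v)) E
    have h2 := Finset.sum_range_succ' (fun i => T^[i] (a • v)) E
    rw [h1, hTE] at h2
    simp only [Function.iterate_zero, id] at h2
    exact (add_right_cancel h2).symm
  have hspan : Submodule.span F V₀ = ⊤ := by
    by_contra hcon
    obtain ⟨l, hl, hle⟩ := Submodule.exists_le_ker_of_lt_top _ (lt_top_iff_ne_top.2 hcon)
    apply hl
    refine LinearMap.ext fun v => ?_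
    have hzero : ∀ w ∈ V₀, l w = 0 := fun w hw => hle (Submodule.subset_span hw)
    let f : Polynomial F := ∑ i ∈ Finset.range E, Polynomial.C (l (T^[i] v)) * Polynomial.X ^ (p ^ i)
    have hev : ∀ a : F, f.eval a = 0 := by
      intro a
      have h1 := hzero _ (hP a v)
      rw [map_sum] at h1
      simp only [f, Polynomial.eval_finset_sum, Polynomial.eval_mul, Polynomial.eval_C, Polynomial.eval_pow, Polynomial.eval_X]
      rw [← h1]
      refine Finset.sum_congr rfl fun i _ => ?_
      rw [hTits, map_smul, smul_eq_mul, mul_comm]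
    have hp2 : 2 ≤ p := hp.out.two_le
    have hdeg : f.natDegree < Fintype.card F := by
      have h1 : f.natDegree ≤ p ^ (E - 1) := by
        refine Polynomial.natDegree_sum_le_of_forall_le _ _ fun i hi => ?_
        refine le_trans (Polynomial.natDegree_C_mul_X_pow_le _ _) ?_
        exact Nat.pow_le_pow_right (by omega) (by have := Finset.mem_range.1 hi; omega)
      rw [hE]
      exact lt_of_le_of_lt h1 (Nat.pow_lt_pow_right (by omega) (by omega))
    have hf0 : f = 0 := Polynomial.eq_zero_of_natDegree_lt_card_of_eval_eq_zero f (f := id) Function.injective_id hev hdeg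
    have hcoef : f.coeff 1 = l v := by
      simp only [f, Polynomial.finset_sum_coeff, Polynomial.coeff_C_mul_X_pow]
      rw [Finset.sum_eq_single 0]
      · simp
      · intro i _ hi
        have : 1 ≠ p ^ i := by
          have h3 : 2 ^ 1 ≤ p ^ i := le_trans (Nat.pow_le_pow_right (by norm_num) (Nat.one_le_iff_ne_zero.2 hi)) (Nat.pow_le_pow_left hp2 i)
          omega
        rw [if_neg this]
      · intro h0
        exact absurd (Finset.mem_range.2 hE0) h0
    rw [hf0] at hcoef
    simpa using hcoef.symm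
  obtain ⟨b, hbs, hbspan, hbli⟩ := exists_linearIndependent F V₀
  let B : Basis b F (ι → F) := Basis.mk hbli (by rw [Subtype.range_coe, hbspan, hspan])
  let e : b ≃ ι := B.indexEquiv (Pi.basisFun F ι)
  let w : ι → ι → F := fun i => (e.symm i : ι → F)
  have hw : LinearIndependent F w := hbli.comp e.symm e.symm.injective
  let D₀ : Matrix ι ι F := Matrix.of fun i j => w j i
  have hD₀ : IsUnit D₀ := Matrix.linearIndependent_cols_iff_isUnit.1 (by
    have : D₀.col = w := by
      funext j i
      rfl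
    rw [this]
    exact hw)
  refine ⟨hD₀.unit, ?_⟩
  rw [hD₀.unit_spec]
  ext i j
  have h1 : T (w j) = w j := hbs (e.symm j).2
  exact congrFun h1 i

/-- An intertwiner with the Frobenius map gives a realisation over the prime field. -/
theorem realisable_of_intertw [Nonempty ι] (hE : Fintype.card F = p ^ E) (hE0 : 0 < E) {S : Set (Matrix ι ι F)}
    (hA : ActsAbsolutelyIrreducibly S) {C : Matrix ι ι F} (hC0 : C ≠ 0) (hC : ∀ s ∈ S, s * C = C * s.map (frobenius F p)) :
    RealisableOver (fixSub (F := F) p 1) S := by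
  classical
  set τ : F →+* F := frobenius F p with hτ
  -- `C` is invertible
  have hCu : IsUnit C := by
    apply Matrix.mulVec_surjective_iff_isUnit.1
    let W : Submodule F (ι → F) := LinearMap.range (Matrix.mulVecLin C)
    have hW := hA.1 W (by
      rintro s hs _ ⟨_, ⟨v, rfl⟩, rfl⟩
      refine ⟨(s.map τ) *ᵥ v, ?_⟩
      simp only [Matrix.mulVecLin_apply, Matrix.toLin'_apply, Matrix.mulVec_mulVec]
      rw [hC s hs])
    rcases hW with h0 | h0
    · exfalso
      apply hC0
      apply Matrix.ext_of_mulVec_single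
      intro j
      have : C *ᵥ Pi.single j 1 ∈ W := ⟨_, rfl⟩
      rw [h0] at this
      have h3 : C *ᵥ Pi.single j 1 = 0 := by simpa using this
      rw [h3, Matrix.zero_mulVec]
    · intro v
      have : v ∈ W := by
        rw [h0]
        trivial
      obtain ⟨u, hu⟩ := this
      exact ⟨u, hu⟩
  -- the norm is scalar
  have hNc : ∀ s ∈ S, Nm τ C E * s = s * Nm τ C E := by
    intro s hs
    rw [Nm_comm τ (hC s hs) E]
    congr 1
    ext i j
    exact (iter_card hE _).symm
  obtain ⟨l, hl⟩ := hA.2 _ hNc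
  have hNu : ∀ k, IsUnit (Nm τ C k) := by
    intro k
    induction k with
    | zero => exact isUnit_one
    | succ k ih =>
      rw [Nm_succ]
      refine hCu.mul ?_
      exact ih.map τ.mapMatrix
  have hone : (1 : Matrix ι ι F) ≠ 0 := one_ne_zero
  have hl0 : l ≠ 0 := by
    rintro rfl
    have h1 := hNu E
    rw [hl, zero_smul] at h1
    exact not_isUnit_zero h1
  have hlp : l ^ p = l := by
    have h1 : C * (Nm τ C E).map τ = Nm τ C E * C := by
      rw [← Nm_succ, Nm_succ_right]
      congr 1
      ext i j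
      exact iter_card hE _
    have h2 : (Nm τ C E).map τ = τ l • 1 := by
      rw [hl]
      ext i j
      simp only [Matrix.map_apply, Matrix.smul_apply, smul_eq_mul, Matrix.one_apply]
      split_ifs <;> simp
    rw [h2, hl, Matrix.mul_smul, Matrix.smul_mul, mul_one, one_mul] at h1
    have h3 : τ l • C = l • C := h1
    have h4 : (τ l - l) • C = 0 := by rw [sub_smul, h3, sub_self]
    have h5 := (smul_eq_zero.1 h4).resolve_right hC0
    have h6 : τ l = l := sub_eq_zero.1 h5
    rwa [hτ, frobenius_def] at h6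
  -- normalising the norm
  obtain ⟨c, hc0, hcN⟩ := exists_norm hE (inv_ne_zero hl0) (by
    rw [inv_pow, hlp])
  have hNone : Nm τ (c • C) E = 1 := by
    rw [Nm_scale, hl, smul_smul]
    have h1 : ∏ i ∈ Finset.range E, τ^[i] c = l⁻¹ := by
      rw [← hcN]
      exact Finset.prod_congr rfl fun i _ => iter_pow c i
    rw [h1, inv_mul_cancel₀ hl0, one_smul]
  obtain ⟨D, hD⟩ := exists_fixed_basis hE hE0 hNone
  refine ⟨D⁻¹, fun s hs i j => ?_⟩
  rw [mem_fixSub, pow_one, inv_inv]
  -- the matrix computation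
  set A : Matrix ι ι F := ((D⁻¹ : GL ι F) : Matrix ι ι F) with hA'
  set Dm : Matrix ι ι F := (D : Matrix ι ι F) with hDm
  have hAD : A * Dm = 1 := by
    rw [hA', hDm, ← Units.val_mul, inv_mul_cancel, Units.val_one]
  have hDA : Dm * A = 1 := by
    rw [hA', hDm, ← Units.val_mul, mul_inv_cancel, Units.val_one]
  have hsC : s * (c • C) = (c • C) * s.map τ := by
    rw [Matrix.mul_smul, hC s hs, Matrix.smul_mul]
  have hDmap : (c • C) * Dm.map τ = Dm := hD
  have hN1 : A.map τ * Dm.map τ = 1 := by
    rw [← Matrix.map_mul, hAD, map_one']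
  have hN2 : A.map τ = A * (c • C) := by
    have h1 : (A * (c • C)) * Dm.map τ = 1 := by
      rw [mul_assoc, hDmap, hAD]
    have h2 : Dm.map τ * A.map τ = 1 := by
      rw [← Matrix.map_mul, hDA, map_one']
    calc A.map τ = (A * (c • C)) * Dm.map τ * A.map τ := by rw [h1, one_mul]
      _ = A * (c • C) * (Dm.map τ * A.map τ) := by rw [mul_assoc]
      _ = A * (c • C) := by rw [h2, mul_one]
  have hmap : (A * s * Dm).map τ = A * s * Dm := by
    rw [Matrix.map_mul, Matrix.map_mul, hN2]
    calc A * (c • C) * s.map τ * Dm.map τ = A * (s * (c • C)) * Dm.map τ := by rw [hsC, mul_assoc A]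
      _ = A * s * ((c • C) * Dm.map τ) := by simp only [mul_assoc]
      _ = A * s * Dm := by rw [hDmap]
  have := congrFun (congrFun hmap i) j
  rwa [Matrix.map_apply, hτ, frobenius_def] at this

/-- The intertwiner. -/
theorem exists_intertw [Nonempty ι] {R : Subgroup (GL ι F)} (hA : ActsAbsolutelyIrreducibly (matrixSet R)) (hSC : ScC R)
    (h2 : (2 : F) ≠ 0) (hm : (sc (-1) : GL ι F) ∈ R) (hZ : ∀ x ∈ R, x ∈ scalars ι F → x = 1 ∨ x = sc (-1)) (τ : F →+* F) :
    ∃ C : Matrix ι ι F, C ≠ 0 ∧ ∀ s ∈ matrixSet R, s * C = C * s.map τ := by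
  classical
  haveI : Fintype R := Fintype.ofFinite R
  let Cf : Matrix ι ι F → Matrix ι ι F := fun X => ∑ x : R, ((x : GL ι F) : Matrix ι ι F) * X * ((((x : GL ι F)⁻¹ : GL ι F) : Matrix ι ι F)).map τ
  have hCf : ∀ (X : Matrix ι ι F) (y : R), ((y : GL ι F) : Matrix ι ι F) * Cf X = Cf X * ((y : GL ι F) : Matrix ι ι F).map τ := by
    intro X y
    simp only [Cf, Finset.mul_sum, Finset.sum_mul]
    refine Fintype.sum_equiv (Equiv.mulLeft y) _ _ fun x => ?_
    simp only [Equiv.coe_mulLeft, Subgroup.coe_mul, _root_.mul_inv_rev, Units.val_mul]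
    rw [Matrix.map_mul]
    have h1 : ((((y : GL ι F)⁻¹ : GL ι F) : Matrix ι ι F)).map τ * ((y : GL ι F) : Matrix ι ι F).map τ = 1 := by
      rw [← Matrix.map_mul, ← Units.val_mul, inv_mul_cancel, Units.val_one, map_one']
    calc ((y : GL ι F) : Matrix ι ι F) * (((x : GL ι F) : Matrix ι ι F) * X * ((((x : GL ι F)⁻¹ : GL ι F) : Matrix ι ι F)).map τ)
        = ((y : GL ι F) : Matrix ι ι F) * (((x : GL ι F) : Matrix ι ι F) * X * ((((x : GL ι F)⁻¹ : GL ι F) : Matrix ι ι F)).map τ) * (((((y : GL ι F)⁻¹ : GL ι F) : Matrix ι ι F)).map τ * ((y : GL ι F) : Matrix ι ι F).map τ) := by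
          rw [h1, mul_one]
      _ = _ := by simp only [mul_assoc]
  have hn := card_ne_zero hA hSC
  have hne : ∃ X, Cf X ≠ 0 := by
    by_contra hcon
    push Not at hcon
    have h1 : ∑ i, ∑ j, Cf (Matrix.single i j 1) i j = 0 := by
      simp only [hcon]
      simp
    have h3 : ∀ (i j : ι) (A B : Matrix ι ι F), (A * Matrix.single i j (1 : F) * B) i j = A i i * B j j := by
      intro i j A B
      rw [Matrix.mul_apply]
      rw [Finset.sum_eq_single j]
      · rw [Matrix.mul_apply, Finset.sum_eq_single i]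
        · simp
        · intro b _ hb
          simp [Matrix.single_apply, hb.symm]
        · simp
      · intro b _ hb
        rw [Matrix.mul_apply]
        have : ∀ c, Matrix.single i j (1 : F) c b = 0 := fun c => by
          simp [Matrix.single_apply, hb.symm]
        simp [this]
      · simp
    have h4 : ∑ i, ∑ j, Cf (Matrix.single i j 1) i j = ∑ x : R, Matrix.trace ((x : GL ι F) : Matrix ι ι F) * τ (Matrix.trace (((x : GL ι F)⁻¹ : GL ι F) : Matrix ι ι F)) := by
      have h5 : ∀ x : R, Matrix.trace ((x : GL ι F) : Matrix ι ι F) * τ (Matrix.trace (((x : GL ι F)⁻¹ : GL ι F) : Matrix ι ι F)) =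
          ∑ i, ∑ j, ((x : GL ι F) : Matrix ι ι F) i i * ((((x : GL ι F)⁻¹ : GL ι F) : Matrix ι ι F)).map τ j j := by
        intro x
        simp only [Matrix.trace, Matrix.diag, map_sum, Matrix.map_apply]
        rw [Finset.sum_mul_sum]
      simp only [Cf, Matrix.sum_apply, h3, h5]
      calc _ = ∑ i, ∑ x : R, ∑ j, ((x : GL ι F) : Matrix ι ι F) i i * ((((x : GL ι F)⁻¹ : GL ι F) : Matrix ι ι F)).map τ j j :=
            Finset.sum_congr rfl fun i _ => Finset.sum_comm
        _ = _ := Finset.sum_comm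
    rw [h4] at h1
    have hne1 : (-1 : F) ≠ 1 := by
      intro h
      apply h2
      linear_combination -h
    have hne2 : (sc (-1) : GL ι F) ≠ 1 := by
      intro h
      have h5 : (-1 : Fˣ) = 1 := sc_inj (ι := ι) (by rw [h, map_one])
      apply hne1
      have := congrArg Units.val h5
      simpa using this
    have hsum := Finset.sum_eq_add (s := Finset.univ) (f := fun x : R => Matrix.trace ((x : GL ι F) : Matrix ι ι F) * τ (Matrix.trace (((x : GL ι F)⁻¹ : GL ι F) : Matrix ι ι F)))
      (1 : R) ⟨sc (-1), hm⟩ (fun h => hne2 (congrArg Subtype.val h).symm) (fun x _ hx => ?_) (fun h => absurd (Finset.mem_univ _) h) (fun h => absurd (Finset.mem_univ _) h)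
    · rw [hsum] at h1
      have hinv : ((sc (-1) : GL ι F)⁻¹ : GL ι F) = sc (-1) := by
        rw [← map_inv]
        simp
      have htr : Matrix.trace ((sc (-1) : GL ι F) : Matrix ι ι F) = -(Fintype.card ι : F) := by
        rw [sc_val, Matrix.trace_smul, Matrix.trace_one]
        simp
      simp only [Subgroup.coe_one, inv_one, Units.val_one, Matrix.trace_one, hinv, htr, map_neg, map_natCast] at h1
      have h6 : 2 * ((Fintype.card ι : F) * (Fintype.card ι : F)) = 0 := by linear_combination h1
      exact mul_ne_zero h2 (mul_ne_zero hn hn) h6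
    · have hxZ : (x : GL ι F) ∉ scalars ι F := by
        intro hmem
        rcases hZ x x.2 hmem with h5 | h5
        · exact hx.1 (Subtype.ext h5)
        · exact hx.2 (Subtype.ext h5)
      rw [trace_eq_zero hA hSC x.2 hxZ, zero_mul]
  obtain ⟨X, hX⟩ := hne
  refine ⟨Cf X, hX, ?_⟩
  rintro _ ⟨y, hy, rfl⟩
  exact hCf X ⟨y, hy⟩

/-- The prime field realisation. -/
theorem realisable_prime [Nonempty ι] (hE : Fintype.card F = p ^ E) (hE0 : 0 < E) {R : Subgroup (GL ι F)} (hA : ActsAbsolutelyIrreducibly (matrixSet R)) (hSC : ScC R)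
    (h2 : (2 : F) ≠ 0) (hm : (sc (-1) : GL ι F) ∈ R) (hZ : ∀ x ∈ R, x ∈ scalars ι F → x = 1 ∨ x = sc (-1)) :
    RealisableOver (fixSub (F := F) p 1) (matrixSet R) := by
  obtain ⟨C, hC0, hC⟩ := exists_intertw hA hSC h2 hm hZ (frobenius F p)
  exact realisable_of_intertw hE hE0 hA hC0 hC

end Cfsg.Agent.Lib.AschS.Desc
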