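import Mathlib
import Cfsg.Agent.Lib.AschS.Base

/-!
# Quadratic forms with a given alternating polar form in characteristic two
-/

set_option autoImplicit false

namespace Cfsg.Agent.Lib.AschS.Quad

open Matrix Module Cfsg Cfsg.Geo
open Cfsg.Agent.Lib.Asch.Forms Cfsg.Agent.Lib.AschF.Adj

universe u

variable {F : Type u} [Field F]

theorem two_zero [Fintype F] (h : ¬ Odd (Fintype.card F)) : (2 : F) = 0 := by
  have h1 : ringChar F = 2 := FiniteField.even_card_iff_char_two.2 (by
    rw [Nat.not_odd_iff] at h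
    exact h)
  have h2 := ringChar.Nat.cast_ringChar (R := F)
  rw [h1] at h2
  exact_mod_cast h2

theorem odd_of_two_ne [Fintype F] (h : (2 : F) ≠ 0) : Odd (Fintype.card F) := by
  by_contra hcon
  exact h (two_zero hcon)

theorem neg_eq_of_two {x : F} (h2 : (2 : F) = 0) : -x = x := by
  linear_combination (-x) * h2

section Gen

variable {κ : Type} [Fintype κ] [DecidableEq κ]

/-- Additive functions which are homogeneous of degree two vanish if they vanish on the basis. -/
theorem add_hom_zero (g : (κ → F) → F) (hadd : ∀ u v, g (u + v) = g u + g v) (hsmul : ∀ (c : F) v, g (c • v) = c ^ 2 * g v)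
    (h0 : ∀ i, g (Pi.single i 1) = 0) (v : κ → F) : g v = 0 := by
  classical
  have h00 : g 0 = 0 := by
    have := hsmul 0 0
    simpa using this
  have key : ∀ s : Finset κ, g (∑ i ∈ s, v i • (Pi.single i (1 : F) : κ → F)) = 0 := by
    intro s
    induction s using Finset.induction_on with
    | empty => simpa using h00
    | insert a s ha ih =>
      rw [Finset.sum_insert ha, hadd, hsmul, h0, ih, mul_zero, add_zero]
  have := key Finset.univ
  rwa [← sum_single v] at this

/-- The quadratic form of an alternating form in characteristic two. -/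
theorem exists_Q (h2 : (2 : F) = 0) (Φ : (κ → F) → (κ → F) → F) (hΦ : Sesq (RingEquiv.refl F) Φ) (halt : ∀ v, Φ v v = 0) :
    ∃ Q : (κ → F) → F, (∀ (c : F) v, Q (c • v) = c ^ 2 * Q v) ∧ (∀ u v, Q (u + v) = Q u + Q v + Φ u v) ∧
      ∀ i, Q (Pi.single i 1) = 0 := by
  classical
  let r := Fintype.equivFin κ
  let G : κ → κ → F := fun p q => Φ (Pi.single p 1) (Pi.single q 1)
  have hG0 : ∀ p, G p p = 0 := fun p => halt _
  have hGs : ∀ p q, G q p = G p q := by
    intro p q
    have h1 := halt (Pi.single p 1 + Pi.single q 1)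
    rw [hΦ.add_left, hΦ.add_right, hΦ.add_right, halt, halt, zero_add, add_zero] at h1
    have h3 : G p q + G q p = 0 := h1
    linear_combination h3 - (G p q) * h2
  have hΦe : ∀ u v, Φ u v = ∑ p, ∑ q, u p * v q * G p q := by
    intro u v
    rw [eq_gram hΦ u v]
    simp only [dotProduct, Matrix.mulVec, Finset.mul_sum]
    refine Finset.sum_congr rfl fun p _ => Finset.sum_congr rfl fun q _ => ?_
    simp only [Function.comp_apply, RingEquiv.refl_apply, G]
    change u p * (Φ (Pi.single p 1) (Pi.single q 1) * v q) = _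
    ring
  let Q : (κ → F) → F := fun z => ∑ p, ∑ q, if r p < r q then z p * z q * G p q else 0
  refine ⟨Q, fun c v => ?_, fun u v => ?_, fun i => ?_⟩
  · simp only [Q, Finset.mul_sum]
    refine Finset.sum_congr rfl fun p _ => Finset.sum_congr rfl fun q _ => ?_
    split_ifs
    · simp only [Pi.smul_apply, smul_eq_mul]
      ring
    · simp
  · rw [hΦe]
    have hsplit : ∑ p, ∑ q, u p * v q * G p q =
        (∑ p, ∑ q, if r p < r q then u p * v q * G p q else 0) + (∑ p, ∑ q, if r q < r p then u p * v q * G p q else 0) := by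
      rw [← Finset.sum_add_distrib]
      refine Finset.sum_congr rfl fun p _ => ?_
      rw [← Finset.sum_add_distrib]
      refine Finset.sum_congr rfl fun q _ => ?_
      rcases lt_trichotomy (r p) (r q) with h | h | h
      · rw [if_pos h, if_neg (lt_asymm h), add_zero]
      · have hpq : p = q := r.injective (Fin.ext (by rw [h]))
        subst hpq
        simp [hG0]
      · rw [if_neg (lt_asymm h), if_pos h, zero_add]
    have hswap : (∑ p, ∑ q, if r q < r p then u p * v q * G p q else 0) = ∑ p, ∑ q, if r p < r q then v p * u q * G p q else 0 := by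
      rw [Finset.sum_comm]
      refine Finset.sum_congr rfl fun p _ => Finset.sum_congr rfl fun q _ => ?_
      split_ifs
      · rw [hGs p q]
        ring
      · rfl
    rw [hsplit, hswap]
    simp only [Q, ← Finset.sum_add_distrib]
    refine Finset.sum_congr rfl fun p _ => Finset.sum_congr rfl fun q _ => ?_
    split_ifs
    · simp only [Pi.add_apply]
      ring
    · simp
  · simp only [Q]
    refine Finset.sum_eq_zero fun p _ => Finset.sum_eq_zero fun q _ => ?_
    split_ifs with h
    · by_cases hp : p = i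
      · subst hp
        have hq : q ≠ p := fun hq => by
          subst hq
          exact lt_irrefl _ h
        simp [Pi.single_apply, hq]
      · simp [Pi.single_apply, hp]
    · rfl

end Gen

variable {ι : Type} [Fintype ι] [DecidableEq ι]

/-- Transport along a change of basis. -/
theorem exists_Q_transport {κ : Type} [Fintype κ] [DecidableEq κ] (h2 : (2 : F) = 0) {f : (ι → F) → (ι → F) → F}
    (hf : Sesq (RingEquiv.refl F) f) (halt : ∀ v, f v v = 0) (e : ι ≃ κ) (P : GL ι F) :
    ∃ Q : (ι → F) → F, (∀ (c : F) v, Q (c • v) = c ^ 2 * Q v) ∧ (∀ u v, Q (u + v) = Q u + Q v + f u v) ∧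
      ∀ i, Q ((P : Matrix ι ι F) *ᵥ ((Pi.single i (1 : F) : κ → F) ∘ e)) = 0 := by
  classical
  let Φ : (κ → F) → (κ → F) → F := fun z w => f ((P : Matrix ι ι F) *ᵥ (z ∘ e)) ((P : Matrix ι ι F) *ᵥ (w ∘ e))
  have hΦ : Sesq (RingEquiv.refl F) Φ := by
    refine ⟨fun x y v => ?_, fun c x v => ?_, fun v x y => ?_, fun c v x => ?_⟩
    · simp only [Φ]
      have : (x + y) ∘ e = x ∘ e + y ∘ e := rfl
      rw [this, Matrix.mulVec_add, hf.add_left]
    · simp only [Φ]
      have : (c • x) ∘ e = c • (x ∘ e) := rfl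
      rw [this, Matrix.mulVec_smul, hf.smul_left]
    · simp only [Φ]
      have : (x + y) ∘ e = x ∘ e + y ∘ e := rfl
      rw [this, Matrix.mulVec_add, hf.add_right]
    · simp only [Φ]
      have : (c • x) ∘ e = c • (x ∘ e) := rfl
      rw [this, Matrix.mulVec_smul, hf.smul_right]
  obtain ⟨Q₀, h1, h3, h4⟩ := exists_Q h2 Φ hΦ (fun v => halt _)
  let C : (ι → F) → (κ → F) := fun v => (((P⁻¹ : GL ι F) : Matrix ι ι F) *ᵥ v) ∘ e.symm
  have hCP : ∀ z : κ → F, C ((P : Matrix ι ι F) *ᵥ (z ∘ e)) = z := by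
    intro z
    simp only [C]
    rw [Cfsg.Agent.Lib.Geo.Basic.inv_mulVec_mulVec]
    funext a
    simp
  have hPC : ∀ v, (P : Matrix ι ι F) *ᵥ (C v ∘ e) = v := by
    intro v
    simp only [C]
    have : (((P⁻¹ : GL ι F) : Matrix ι ι F) *ᵥ v) ∘ e.symm ∘ e = ((P⁻¹ : GL ι F) : Matrix ι ι F) *ᵥ v := by
      funext i
      simp
    rw [Function.comp_assoc, this, Cfsg.Agent.Lib.Geo.Basic.mulVec_inv_mulVec]
  refine ⟨fun v => Q₀ (C v), fun c v => ?_, fun u v => ?_, fun i => ?_⟩
  · rw [← h1]
    congr 1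
    simp only [C]
    rw [Matrix.mulVec_smul]
    rfl
  · have h5 : C (u + v) = C u + C v := by
      simp only [C]
      rw [Matrix.mulVec_add]
      rfl
    simp only
    rw [h5, h3]
    congr 1
    simp only [Φ]
    rw [hPC, hPC]
  · simp only
    rw [hCP, h4]

/-- Non-degeneracy. -/
theorem isNQ {f : (ι → F) → (ι → F) → F} {σ : F ≃+* F} {ε : F} (hf : HF σ ε f) (hσ : σ = RingEquiv.refl F) {Q : (ι → F) → F}
    (hsm : ∀ (c : F) v, Q (c • v) = c ^ 2 * Q v) (hpol : ∀ u v, Q (u + v) = Q u + Q v + f u v) :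
    IsNondegenerateQuadraticForm Q ∧ ∀ u v, QuadraticMap.polar Q u v = f u v := by
  subst hσ
  have hp : ∀ u v, QuadraticMap.polar Q u v = f u v := by
    intro u v
    simp only [QuadraticMap.polar]
    rw [hpol]
    ring
  refine ⟨⟨hsm, ⟨fun x y v => ?_, fun c x v => ?_, fun v x y => ?_, fun c v x => ?_⟩, fun v hv => ?_⟩, hp⟩
  · simp only [hp, hf.sesq.add_left]
  · simp only [hp, hf.sesq.smul_left]
  · simp only [hp, hf.sesq.add_right]
  · simp only [hp, hf.sesq.smul_right, RingEquiv.refl_apply]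
  · obtain ⟨⟨a, ha⟩, ⟨b, hb⟩⟩ := hf.nd v hv
    exact ⟨⟨a, by rwa [hp]⟩, ⟨b, by rwa [hp]⟩⟩

/-- An isometry preserving the vanishing on a spanning set fixes the quadratic form. -/
theorem Q_fixed {f : (ι → F) → (ι → F) → F} {Q : (ι → F) → F} (hsm : ∀ (c : F) v, Q (c • v) = c ^ 2 * Q v)
    (hpol : ∀ u v, Q (u + v) = Q u + Q v + f u v) {S : Set (ι → F)} (hS : ∀ v, v ∈ Submodule.span F S) (g : GL ι F)
    (hg : ∀ u v, f ((g : Matrix ι ι F) *ᵥ u) ((g : Matrix ι ι F) *ᵥ v) = f u v) (h0 : ∀ s ∈ S, Q ((g : Matrix ι ι F) *ᵥ s) = Q s)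
    (v : ι → F) : Q ((g : Matrix ι ι F) *ᵥ v) = Q v := by
  have hv := hS v
  induction hv using Submodule.span_induction with
  | mem x hx => exact h0 x hx
  | zero =>
    have h1 := hsm 0 0
    rw [zero_smul, zero_pow (by norm_num), zero_mul] at h1
    rw [Matrix.mulVec_zero]
  | add x y _ _ hx hy =>
    rw [Matrix.mulVec_add, hpol, hpol, hx, hy, hg]
  | smul c x _ hx =>
    rw [Matrix.mulVec_smul, hsm, hsm, hx]

/-- The conclusion for the group. -/
theorem quad_false [Fintype F] {f : (ι → F) → (ι → F) → F} {H : Subgroup (GL ι F)} (hf : HF (RingEquiv.refl F) (-1) f)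
    (hNo : Cfsg.Agent.Lib.AschS.Base.SNoClass f H) (h2 : (2 : F) = 0) {Q : (ι → F) → F}
    (hsm : ∀ (c : F) v, Q (c • v) = c ^ 2 * Q v) (hpol : ∀ u v, Q (u + v) = Q u + Q v + f u v)
    (hfix : ∀ h ∈ H, ∀ v, Q ((h : Matrix ι ι F) *ᵥ v) = Q v) : False := by
  obtain ⟨hQ, hp⟩ := isNQ hf rfl hsm hpol
  refine hNo.quad Q ?_ hQ hp fun h hh => ⟨1, fun v => ?_⟩
  · intro hodd
    by_contra -
    have h1 : ringChar F ≠ 2 := by
      intro h3
      have h4 := FiniteField.even_card_iff_char_two.1 h3
      rw [Nat.odd_iff] at hodd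
      omega
    exact (Ring.two_ne_zero h1) h2
  · rw [Units.val_one, one_mul]
    exact hfix h hh v

end Cfsg.Agent.Lib.AschS.Quad
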