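import Mathlib
import Cfsg.Agent.Lib.AschS.Quad
import Cfsg.Agent.Lib.AschF.OddB

/-!
# Fields closed under adjoints for an alternating form
-/

set_option autoImplicit false

namespace Cfsg.Agent.Lib.AschS.Fld

open Matrix Module Cfsg Cfsg.Geo
open Cfsg.Agent.Lib.Asch.Forms Cfsg.Agent.Lib.AschF.Adj Cfsg.Agent.Lib.AschS.Base Cfsg.Agent.Lib.AschS.Quad
open Cfsg.Agent.Lib.AschF.OddB (isField_K)

universe u

variable {ι : Type} [Fintype ι] [DecidableEq ι] {F : Type u} [Field F] [Fintype F]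
  {f : (ι → F) → (ι → F) → F} {H : Subgroup (GL ι F)} {ε : F}

/-- The adjoint involution on a field closed under adjoints. -/
noncomputable def adK' (hf : HF (RingEquiv.refl F) ε f) {r : ℕ} {K : Subalgebra F (Matrix ι ι F)} (hK : IsFieldSubalgebra r K)
    (hadj : IsAdjointClosedFor f K) : K ≃ₐ[F] K where
  toFun k := ⟨Ad (RingEquiv.refl F) f k, by
    obtain ⟨k', hk', h⟩ := hadj k k.2
    rw [← ad_unique hf h]
    exact hk'⟩
  invFun k := ⟨Ad (RingEquiv.refl F) f k, by
    obtain ⟨k', hk', h⟩ := hadj k k.2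
    rw [← ad_unique hf h]
    exact hk'⟩
  left_inv k := Subtype.ext (ad_ad hf k)
  right_inv k := Subtype.ext (ad_ad hf k)
  map_mul' x y := by
    apply Subtype.ext
    change Ad (RingEquiv.refl F) f ((x : Matrix ι ι F) * y) = Ad (RingEquiv.refl F) f x * Ad (RingEquiv.refl F) f y
    rw [ad_mul hf, hK.comm (Ad (RingEquiv.refl F) f y)]
    · obtain ⟨k', hk', h⟩ := hadj y y.2
      rw [← ad_unique hf h]
      exact hk'
    · obtain ⟨k', hk', h⟩ := hadj x x.2
      rw [← ad_unique hf h]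
      exact hk'
  map_add' x y := Subtype.ext (ad_add hf x y)
  commutes' c := by
    apply Subtype.ext
    change Ad (RingEquiv.refl F) f (algebraMap F (Matrix ι ι F) c) = algebraMap F (Matrix ι ι F) c
    rw [Algebra.algebraMap_eq_smul_one, ad_smul hf, ad_one hf]
    rfl

/-- A field of odd degree closed under adjoints is self-adjoint. -/
theorem two_of_not_selfadj [Nonempty ι] (hf : HF (RingEquiv.refl F) ε f) {r : ℕ} {K : Subalgebra F (Matrix ι ι F)} (hK : IsFieldSubalgebra r K)
    (hr : r.Prime) (hadj : IsAdjointClosedFor f K) (hns : ¬ IsSelfAdjointFor f K) : r = 2 := by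
  classical
  rcases hr.eq_two_or_odd' with h | hodd
  · exact h
  exfalso
  apply hns
  letI fK : Field K := (isField_K hK).toField
  let α : K ≃ₐ[F] K := adK' hf hK hadj
  have h1 : α * α = 1 := by
    ext k
    exact congrFun (congrFun (ad_ad hf k.1) _) _
  have h2 : orderOf α ∣ 2 := by
    apply orderOf_dvd_of_pow_eq_one
    rw [pow_two, h1]
  have h3 : orderOf α ∣ r := by
    have h4 := orderOf_dvd_natCard α
    rwa [IsGalois.card_aut_eq_finrank, hK.finrank_eq] at h4
  have h4 : orderOf α = 1 := by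
    have hcop : Nat.Coprime 2 r := Nat.coprime_two_left.2 hodd
    exact Nat.eq_one_of_dvd_coprimes hcop h2 h3
  have h5 : α = 1 := orderOf_eq_one_iff.1 h4
  intro k hk u v
  have h6 : Ad (RingEquiv.refl F) f k = k := by
    have := congrArg (fun β : K ≃ₐ[F] K => ((β ⟨k, hk⟩ : K) : Matrix ι ι F)) h5
    exact this
  conv_rhs => rw [← h6]
  exact ad_spec hf k u v

/-- Self-adjoint fields satisfy the vanishing condition. -/
theorem zero_of_selfadj [Nonempty ι] (hf : HF (RingEquiv.refl F) (-1) f) (halt : ∀ v, f v v = 0) {r : ℕ} {K : Subalgebra F (Matrix ι ι F)} (hK : IsFieldSubalgebra r K)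
    (hsa : IsSelfAdjointFor f K) (k : Matrix ι ι F) (hk : k ∈ K) (v : ι → F) : f (k *ᵥ v) v = 0 := by
  classical
  by_cases h2 : (2 : F) = 0
  · letI fK : Field K := (isField_K hK).toField
    haveI hfinM : Finite (Matrix ι ι F) := inferInstanceAs (Finite (ι → ι → F))
    haveI hfinK : Finite K := Finite.of_injective (fun k : K => (k : Matrix ι ι F)) Subtype.val_injective
    have hch : ringChar K = 2 := by
      have h22 : (2 : K) = 0 := by
        rw [← one_add_one_eq_two]
        apply Subtype.ext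
        change (1 : Matrix ι ι F) + 1 = 0
        rw [← two_smul F (1 : Matrix ι ι F), h2, zero_smul]
      haveI : CharP K 2 := CharTwo.of_one_ne_zero_of_two_eq_zero one_ne_zero h22
      exact ringChar.eq K 2
    obtain ⟨l, hl⟩ := FiniteField.isSquare_of_char_two hch ⟨k, hk⟩
    have hl' : k = (l : Matrix ι ι F) * l := congrArg Subtype.val hl
    rw [hl', ← Matrix.mulVec_mulVec, hsa l l.2, halt]
  · have h3 := hsa k hk v v
    have h4 := hf.herm (k *ᵥ v) v
    rw [h4, RingEquiv.refl_apply] at h3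
    have h5 : 2 * f (k *ᵥ v) v = 0 := by linear_combination h3
    exact (mul_eq_zero.1 h5).resolve_left h2

/-- Fields closed under adjoints are excluded. -/
theorem fld_false [Nonempty ι] (hf : HF (RingEquiv.refl F) (-1) f) (halt : ∀ v, f v v = 0)
    (hfix : ∀ g ∈ H, ∀ u v, f ((g : Matrix ι ι F) *ᵥ u) ((g : Matrix ι ι F) *ᵥ v) = f u v) (hNo : SNoClass f H)
    {r : ℕ} {K : Subalgebra F (Matrix ι ι F)} (hr : r.Prime) (hK : IsFieldSubalgebra r K) (hadj : IsAdjointClosedFor f K)
    (hle : H ≤ subalgebraNormalizer K) : False := by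
  classical
  by_cases hsa : IsSelfAdjointFor f K
  · exact hNo.fld₁ r K hr hK hsa (fun k hk v => zero_of_selfadj hf halt hK hsa k hk v) hle
  have hr2 := two_of_not_selfadj hf hK hr hadj hsa
  subst hr2
  by_cases h2 : (2 : F) = 0
  swap
  · exact hNo.fld₂ K (odd_of_two_ne h2) hK hadj hsa hle
  -- the form `f(θ v, v)`
  have m2 : ∀ X : Matrix ι ι F, X + X = 0 := fun X => by
    rw [← two_smul F X, h2, zero_smul]
  have hAdK : ∀ k ∈ K, Ad (RingEquiv.refl F) f k ∈ K := by
    intro k hk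
    obtain ⟨k', hk', h⟩ := hadj k hk
    rw [← ad_unique hf h]
    exact hk'
  have hAds : ∀ (c : F) (k : Matrix ι ι F), Ad (RingEquiv.refl F) f (c • k) = c • Ad (RingEquiv.refl F) f k := fun c k => ad_smul hf c k
  obtain ⟨x, hx, hxne⟩ : ∃ x ∈ K, Ad (RingEquiv.refl F) f x ≠ x := by
    by_contra hcon
    push Not at hcon
    apply hsa
    intro k hk u v
    conv_rhs => rw [← hcon k hk]
    exact ad_spec hf k u v
  have hxsc : ∀ c : F, x ≠ c • 1 := by
    rintro c rfl
    apply hxne
    rw [hAds, ad_one hf]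
  -- `K` is spanned by `x` and `1`
  let T : (F × F) →ₗ[F] K :=
    { toFun := fun a => a.1 • (⟨x, hx⟩ : K) + a.2 • (1 : K)
      map_add' := fun a b => by simp only [Prod.fst_add, Prod.snd_add, add_smul]; abel
      map_smul' := fun c a => by simp only [Prod.smul_fst, Prod.smul_snd, smul_eq_mul, mul_smul, smul_add, RingHom.id_apply] }
  have hTv : ∀ a : F × F, ((T a : K) : Matrix ι ι F) = a.1 • x + a.2 • 1 := fun a => rfl
  have hTinj : Function.Injective T := by
    rw [← LinearMap.ker_eq_bot, LinearMap.ker_eq_bot']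
    rintro ⟨b, c⟩ hT
    have hT' : b • x + c • (1 : Matrix ι ι F) = 0 := by
      have := congrArg Subtype.val hT
      simpa [hTv] using this
    have hb : b = 0 := by
      by_contra hb
      apply hxsc (-(c / b))
      have h3 : b • x = (-c) • (1 : Matrix ι ι F) := by
        rw [neg_smul]
        exact eq_neg_of_add_eq_zero_left hT'
      have h4 : x = b⁻¹ • (b • x) := by rw [smul_smul, inv_mul_cancel₀ hb, one_smul]
      rw [h4, h3, smul_smul]
      congr 1
      field_simp
    subst hb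
    rw [zero_smul, zero_add] at hT'
    have hc : c = 0 := by
      by_contra hc
      have h3 : (1 : Matrix ι ι F) = c⁻¹ • (c • 1) := by rw [smul_smul, inv_mul_cancel₀ hc, one_smul]
      rw [hT', smul_zero] at h3
      exact one_ne_zero h3
    rw [hc]
    rfl
  have hfinM : Module.Finite F K := Module.Finite.of_injective K.val.toLinearMap Subtype.val_injective
  have hTsurj : Function.Surjective T := by
    refine (LinearMap.injective_iff_surjective_of_finrank_eq_finrank ?_).1 hTinj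
    rw [hK.finrank_eq, Module.finrank_prod, Module.finrank_self]
  have hfixF : ∀ y ∈ K, Ad (RingEquiv.refl F) f y = y → ∃ d : F, y = d • 1 := by
    intro y hy hyy
    obtain ⟨⟨a, b⟩, hab⟩ := hTsurj ⟨y, hy⟩
    have h3 : y = a • x + b • 1 := by
      have := congrArg Subtype.val hab
      rw [hTv] at this
      exact this.symm
    have h4 : a • (Ad (RingEquiv.refl F) f x - x) = 0 := by
      have h5 : Ad (RingEquiv.refl F) f y = a • Ad (RingEquiv.refl F) f x + b • 1 := by
        rw [h3, ad_add hf, hAds, hAds, ad_one hf]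
      have h6 : a • Ad (RingEquiv.refl F) f x + b • 1 = a • x + b • 1 := by
        rw [← h5, hyy, ← h3]
      rw [smul_sub, sub_eq_zero]
      exact add_right_cancel h6
    have ha : a = 0 := by
      by_contra ha
      apply hxne
      have := (smul_eq_zero.1 h4).resolve_left ha
      exact sub_eq_zero.1 this
    refine ⟨b, ?_⟩
    rw [h3, ha, zero_smul, zero_add]
  obtain ⟨τ, hτ⟩ := hfixF (x + Ad (RingEquiv.refl F) f x) (K.add_mem hx (hAdK x hx)) (by
    rw [ad_add hf, ad_ad hf, add_comm])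
  have hτ0 : τ ≠ 0 := by
    rintro rfl
    rw [zero_smul] at hτ
    apply hxne
    have h3 := m2 x
    have h4 : x + Ad (RingEquiv.refl F) f x = x + x := by rw [hτ, h3]
    exact add_left_cancel h4
  let θ : Matrix ι ι F := τ⁻¹ • x
  have hθK : θ ∈ K := K.smul_mem hx _
  have hθ1 : θ + Ad (RingEquiv.refl F) f θ = 1 := by
    simp only [θ]
    rw [hAds, ← smul_add, hτ, smul_smul, inv_mul_cancel₀ hτ0, one_smul]
  have hAdθ : ∀ u v, f (Ad (RingEquiv.refl F) f θ *ᵥ u) v = f u (θ *ᵥ v) := by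
    intro u v
    have := ad_spec hf (Ad (RingEquiv.refl F) f θ) u v
    rwa [ad_ad hf] at this
  have hsw : ∀ x y, f y x = f x y := by
    intro x y
    rw [hf.herm x y, RingEquiv.refl_apply]
    linear_combination (-(f x y)) * h2
  let Q : (ι → F) → F := fun v => f (θ *ᵥ v) v
  have hsm : ∀ (c : F) v, Q (c • v) = c ^ 2 * Q v := by
    intro c v
    simp only [Q]
    rw [Matrix.mulVec_smul, hf.sesq.smul_left, hf.sesq.smul_right, RingEquiv.refl_apply]
    ring
  have hpol : ∀ u v, Q (u + v) = Q u + Q v + f u v := by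
    intro u v
    simp only [Q]
    rw [Matrix.mulVec_add, hf.sesq.add_left, hf.sesq.add_right, hf.sesq.add_right]
    have h3 : f u v = f (θ *ᵥ u) v + f u (θ *ᵥ v) := by
      rw [← hAdθ, ← hf.sesq.add_left, ← Matrix.add_mulVec, hθ1, Matrix.one_mulVec]
    rw [h3, hsw (θ *ᵥ v) u]
    ring
  refine quad_false hf hNo h2 hsm hpol fun h hh v => ?_
  -- the conjugate of `θ`
  have hhi : ∀ u v, f (((h⁻¹ : GL ι F) : Matrix ι ι F) *ᵥ u) (((h⁻¹ : GL ι F) : Matrix ι ι F) *ᵥ v) = f u v :=
    hfix h⁻¹ (H.inv_mem hh)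
  let θ' : Matrix ι ι F := ((h⁻¹ : GL ι F) : Matrix ι ι F) * θ * (h : Matrix ι ι F)
  have hθ'K : θ' ∈ K := by
    have h3 := hle (H.inv_mem hh) θ
    have h4 : ((h⁻¹ : GL ι F) : Matrix ι ι F) * θ * (((h⁻¹)⁻¹ : GL ι F) : Matrix ι ι F) = θ' := by
      simp only [θ', inv_inv]
    rw [h4] at h3
    exact h3.1 hθK
  have hAdθ' : Ad (RingEquiv.refl F) f θ' = ((h⁻¹ : GL ι F) : Matrix ι ι F) * Ad (RingEquiv.refl F) f θ * (h : Matrix ι ι F) := by
    have h3 := ad_conj hf h⁻¹ hhi θ
    simp only [inv_inv] at h3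
    exact h3
  have hih : ((h⁻¹ : GL ι F) : Matrix ι ι F) * (h : Matrix ι ι F) = 1 := by
    rw [← Units.val_mul, inv_mul_cancel, Units.val_one]
  have hθ'1 : θ' + Ad (RingEquiv.refl F) f θ' = 1 := by
    rw [hAdθ']
    simp only [θ']
    rw [← add_mul, ← mul_add, hθ1, mul_one, hih]
  obtain ⟨d, hd⟩ := hfixF (θ' + θ) (K.add_mem hθ'K hθK) (by
    rw [ad_add hf]
    have h3 : Ad (RingEquiv.refl F) f θ' = 1 - θ' := eq_sub_of_add_eq' hθ'1
    have h4 : Ad (RingEquiv.refl F) f θ = 1 - θ := eq_sub_of_add_eq' hθ1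
    rw [h3, h4]
    have h5 := m2 (1 : Matrix ι ι F)
    have h6 := m2 θ'
    have h7 := m2 θ
    have h8 : 1 - θ' + (1 - θ) = ((1 : Matrix ι ι F) + 1) - (θ' + θ') - (θ + θ) + (θ' + θ) := by abel
    rw [h8, h5, h6, h7]
    abel)
  simp only [Q]
  have h3 : f (θ *ᵥ (h : Matrix ι ι F) *ᵥ v) ((h : Matrix ι ι F) *ᵥ v) = f (θ' *ᵥ v) v := by
    have h4 := hhi (θ *ᵥ (h : Matrix ι ι F) *ᵥ v) ((h : Matrix ι ι F) *ᵥ v)
    rw [← h4]
    simp only [θ', Matrix.mulVec_mulVec]
    rw [hih, Matrix.one_mulVec, mul_assoc]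
  have h4 : θ' = d • 1 - θ := eq_sub_of_add_eq hd
  rw [h3, h4, Matrix.sub_mulVec, Sesq_sub_left hf.sesq, Matrix.smul_mulVec, Matrix.one_mulVec, hf.sesq.smul_left, halt, mul_zero, zero_sub]
  exact neg_eq_of_two h2

end Cfsg.Agent.Lib.AschS.Fld
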