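import Mathlib
import Cfsg.Agent.Lib.AschS.Quad
import Cfsg.Agent.Lib.AschF.OddA

/-!
# Pairs of complementary totally singular subspaces
-/

set_option autoImplicit false

namespace Cfsg.Agent.Lib.AschS.Pair

open Matrix Module Cfsg Cfsg.Geo
open Cfsg.Agent.Lib.Asch.Forms Cfsg.Agent.Lib.AschF.Adj Cfsg.Agent.Lib.AschS.Base Cfsg.Agent.Lib.AschS.Quad

universe u

variable {ι : Type} [Fintype ι] [DecidableEq ι] {F : Type u} [Field F] [Fintype F]
  {f : (ι → F) → (ι → F) → F} {H : Subgroup (GL ι F)}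

theorem pair_even (hf : HF (RingEquiv.refl F) (-1) f) (hfix : ∀ g ∈ H, ∀ u v, f ((g : Matrix ι ι F) *ᵥ u) ((g : Matrix ι ι F) *ᵥ v) = f u v)
    (hNo : SNoClass f H) (h2 : (2 : F) = 0) {k : ℕ} {D : Fin 2 → Submodule F (ι → F)} (hD : IsMDecomposition k D)
    (hTS : ∀ i, IsTotallySingularFor f (D i)) (hle : H ≤ decompositionStabilizer D) : False := by
  classical
  have hdisj : Disjoint (D 0) (D 1) := hD.indep.pairwiseDisjoint (by decide)
  have hcod : D 0 ⊔ D 1 = ⊤ := by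
    rw [eq_top_iff, ← hD.iSup_eq_top]
    refine iSup_le fun i => ?_
    fin_cases i
    · exact le_sup_left
    · exact le_sup_right
  have hex : ∀ v : ι → F, ∃ a ∈ D 0, ∃ b ∈ D 1, a + b = v := by
    intro v
    have hv : v ∈ D 0 ⊔ D 1 := by
      rw [hcod]
      trivial
    obtain ⟨a, ha, b, hb, hab⟩ := Submodule.mem_sup.1 hv
    exact ⟨a, ha, b, hb, hab⟩
  choose a ha b hb hab using hex
  have huniq : ∀ {x x' y y' : ι → F}, x ∈ D 0 → x' ∈ D 0 → y ∈ D 1 → y' ∈ D 1 → x + y = x' + y' → x = x' ∧ y = y' := by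
    intro x x' y y' hx hx' hy hy' he
    have h1 : x - x' = y' - y := by
      have : x - x' - (y' - y) = (x + y) - (x' + y') := by abel
      rw [← sub_eq_zero, this, he, sub_self]
    have h3 : x - x' ∈ D 0 ⊓ D 1 := ⟨(D 0).sub_mem hx hx', by
      rw [h1]
      exact (D 1).sub_mem hy' hy⟩
    rw [hdisj.eq_bot] at h3
    have h4 : x - x' = 0 := by simpa using h3
    have h5 : y' - y = 0 := by rw [← h1, h4]
    exact ⟨sub_eq_zero.1 h4, (sub_eq_zero.1 h5).symm⟩
  let Q : (ι → F) → F := fun v => f (a v) (b v)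
  have hQ : ∀ {x y : ι → F}, x ∈ D 0 → y ∈ D 1 → Q (x + y) = f x y := by
    intro x y hx hy
    obtain ⟨h3, h4⟩ := huniq (ha (x + y)) hx (hb (x + y)) hy (hab (x + y))
    simp only [Q]
    rw [h3, h4]
  have hsw : ∀ x y, f y x = f x y := by
    intro x y
    rw [hf.herm x y, RingEquiv.refl_apply]
    linear_combination (-(f x y)) * h2
  have hsm : ∀ (c : F) v, Q (c • v) = c ^ 2 * Q v := by
    intro c v
    conv_lhs => rw [← hab v, smul_add]
    rw [hQ ((D 0).smul_mem c (ha v)) ((D 1).smul_mem c (hb v)), hf.sesq.smul_left, hf.sesq.smul_right, RingEquiv.refl_apply]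
    simp only [Q]
    ring
  have hpol : ∀ u v, Q (u + v) = Q u + Q v + f u v := by
    intro u v
    have h3 : u + v = (a u + a v) + (b u + b v) := by
      conv_lhs => rw [← hab u, ← hab v]
      abel
    rw [h3, hQ ((D 0).add_mem (ha u) (ha v)) ((D 1).add_mem (hb u) (hb v))]
    simp only [Q]
    have h6 : f u v = f (a u + b u) (a v + b v) := by rw [hab, hab]
    have h4 := hTS 0 _ (ha u) _ (ha v)
    have h5 := hTS 1 _ (hb u) _ (hb v)
    simp only [h6, hf.sesq.add_left, hf.sesq.add_right]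
    rw [h4, h5, hsw (a v) (b u)]
    ring
  refine quad_false hf hNo h2 hsm hpol fun g hg v => ?_
  obtain ⟨π, hπ⟩ := hle hg
  have hm : ∀ i, ∀ x ∈ D i, (g : Matrix ι ι F) *ᵥ x ∈ D (π i) := by
    intro i x hx
    rw [← hπ i]
    exact ⟨x, hx, rfl⟩
  have hgv : (g : Matrix ι ι F) *ᵥ v = (g : Matrix ι ι F) *ᵥ a v + (g : Matrix ι ι F) *ᵥ b v := by
    rw [← Matrix.mulVec_add, hab]
  have hne : π 0 ≠ π 1 := fun h => by
    have := π.injective h
    exact absurd this (by decide)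
  have hcases : (π 0 = 0 ∧ π 1 = 1) ∨ (π 0 = 1 ∧ π 1 = 0) := by
    generalize π 0 = s at *
    generalize π 1 = t at *
    fin_cases s <;> fin_cases t <;> simp_all
  rcases hcases with ⟨h0, h1⟩ | ⟨h0, h1⟩
  · have h3 := hm 0 _ (ha v)
    have h4 := hm 1 _ (hb v)
    rw [h0] at h3
    rw [h1] at h4
    rw [hgv, hQ h3 h4, hfix g hg]
  · have h3 := hm 0 _ (ha v)
    have h4 := hm 1 _ (hb v)
    rw [h0] at h3
    rw [h1] at h4
    rw [hgv, add_comm, hQ h4 h3, hfix g hg, hsw]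

theorem pair_false (hf : HF (RingEquiv.refl F) (-1) f) (hfix : ∀ g ∈ H, ∀ u v, f ((g : Matrix ι ι F) *ᵥ u) ((g : Matrix ι ι F) *ᵥ v) = f u v)
    (hNo : SNoClass f H) {k : ℕ} {D : Fin 2 → Submodule F (ι → F)} (hD : IsMDecomposition k D)
    (hTS : ∀ i, IsTotallySingularFor f (D i)) (hle : H ≤ decompositionStabilizer D) : False := by
  by_cases hodd : Odd (Fintype.card F)
  · have h1 := Cfsg.Agent.Lib.AschF.OddA.card_eq_of_decomp hD
    exact hNo.pair k D hodd h1.symm hD hTS hle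
  · exact pair_even hf hfix hNo (two_zero hodd) hD hTS hle

end Cfsg.Agent.Lib.AschS.Pair
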