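import Mathlib
import Cfsg.Agent.Lib.AschS.Fld
import Cfsg.Agent.Lib.AschS.Pair
import Cfsg.Agent.Lib.AschF.Cliff

/-!
# A skew-adjoint operator with scalar square normalised by the group
-/

set_option autoImplicit false

namespace Cfsg.Agent.Lib.AschS.Skew

open Matrix Module Cfsg Cfsg.Geo
open Cfsg.Agent.Lib.Asch.Forms Cfsg.Agent.Lib.AschF.Adj Cfsg.Agent.Lib.AschS.Base Cfsg.Agent.Lib.AschS.Quad

universe u

variable {ι : Type} [Fintype ι] [DecidableEq ι] {F : Type u} [Field F] [Fintype F]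
  {f : (ι → F) → (ι → F) → F} {H : Subgroup (GL ι F)}

/-- The skew operator is excluded. -/
theorem skew_false [Nonempty ι] (hf : HF (RingEquiv.refl F) (-1) f)
    (hfix : ∀ g ∈ H, ∀ u v, f ((g : Matrix ι ι F) *ᵥ u) ((g : Matrix ι ι F) *ᵥ v) = f u v)
    (hIrr : ActsIrreducibly (matrixSet H)) (h2 : (2 : F) ≠ 0)
    (hDec : ∀ (t k : ℕ) (D : Fin t → Submodule F (ι → F)), IsNondegenerateMDecomposition f k D →
      H ≤ decompositionStabilizer D → (∀ i j, ∃ g ∈ H, (D i).map (Matrix.toLin' (g : Matrix ι ι F)) = D j) → False)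
    (hPair : ∀ (k : ℕ) (D : Fin 2 → Submodule F (ι → F)), IsMDecomposition k D → (∀ i, IsTotallySingularFor f (D i)) →
      H ≤ decompositionStabilizer D → False)
    (hFld : ∀ K : Subalgebra F (Matrix ι ι F), IsFieldSubalgebra 2 K → IsAdjointClosedFor f K → H ≤ subalgebraNormalizer K → False)
    (J : Matrix ι ι F) {d : F} (hd : d ≠ 0) (hJJ : J * J = d • 1) (hJs : ∀ u v, f (J *ᵥ u) v = - f u (J *ᵥ v))
    (hJh : ∀ h ∈ H, ∃ κ : F, κ ≠ 0 ∧ (h : Matrix ι ι F) * J = κ • (J * (h : Matrix ι ι F))) : False := by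
  classical
  obtain ⟨i₀⟩ := ‹Nonempty ι›
  have hone : (1 : Matrix ι ι F) ≠ 0 := one_ne_zero
  -- `J` is not scalar
  have hJsc : ∀ c : F, J ≠ c • 1 := by
    rintro c rfl
    have hc0 : c = 0 := by
      by_contra hc
      let v₀ : ι → F := Pi.single i₀ 1
      have hv₀ : v₀ ≠ 0 := by
        intro h0
        have := congrFun h0 i₀
        simp [v₀] at this
      obtain ⟨⟨x, hx⟩, -⟩ := hf.nd v₀ hv₀
      have h3 := hJs x v₀
      simp only [Matrix.smul_mulVec, Matrix.one_mulVec, hf.sesq.smul_left, hf.sesq.smul_right, RingEquiv.refl_apply] at h3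
      have h4 : 2 * c * f x v₀ = 0 := by linear_combination h3
      exact mul_ne_zero (mul_ne_zero h2 hc) hx h4
    subst hc0
    rw [zero_smul, mul_zero] at hJJ
    have h3 : d • (1 : Matrix ι ι F) = 0 := hJJ.symm
    exact (smul_ne_zero hd hone) h3
  have hneg : ∀ u v, f u ((-J) *ᵥ v) = - f u (J *ᵥ v) := by
    intro u v
    rw [Matrix.neg_mulVec]
    have h3 := hf.sesq.smul_right (-1) u (J *ᵥ v)
    simpa using h3
  have hAdJ : Ad (RingEquiv.refl F) f J = -J := (ad_unique hf (fun u v => by rw [hJs, hneg])).symm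
  have hAds : ∀ (c : F) (k : Matrix ι ι F), Ad (RingEquiv.refl F) f (c • k) = c • Ad (RingEquiv.refl F) f k := fun c k => ad_smul hf c k
  have hconj : ∀ h ∈ H, ∃ κ : F, κ ≠ 0 ∧ (h : Matrix ι ι F) * J * ((h⁻¹ : GL ι F) : Matrix ι ι F) = κ • J := by
    intro h hh
    obtain ⟨κ, hκ, hJ⟩ := hJh h hh
    refine ⟨κ, hκ, ?_⟩
    rw [hJ, Matrix.smul_mul, mul_assoc, ← Units.val_mul, mul_inv_cancel, Units.val_one, mul_one]
  have hmul : ∀ a b a' b' : F, (a • 1 + b • J) * (a' • 1 + b' • J) = (a * a' + b * b' * d) • (1 : Matrix ι ι F) + (a * b' + b * a') • J := by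
    intro a b a' b'
    simp only [add_mul, mul_add, Matrix.smul_mul, Matrix.mul_smul, one_mul, mul_one, hJJ, smul_smul, add_smul]
    module
  have hcj : ∀ (h : GL ι F) (κ a b : F), (h : Matrix ι ι F) * J * ((h⁻¹ : GL ι F) : Matrix ι ι F) = κ • J →
      (h : Matrix ι ι F) * (a • 1 + b • J) * ((h⁻¹ : GL ι F) : Matrix ι ι F) = a • 1 + (b * κ) • J := by
    intro h κ a b hκ
    simp only [mul_add, add_mul, Matrix.mul_smul, Matrix.smul_mul, mul_one, one_mul]
    rw [← Units.val_mul, mul_inv_cancel, Units.val_one, hκ, smul_smul]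
  by_cases hsq : IsSquare d
  · obtain ⟨e, he⟩ := hsq
    have he0 : e ≠ 0 := by
      rintro rfl
      exact hd (by rw [he, mul_zero])
    let K : Set (Matrix ι ι F) := {k | ∃ a b : F, k = a • 1 + b • J}
    refine Cfsg.Agent.Lib.AschF.Cliff.idem_false hf H hIrr hfix K ?_ ?_ ?_ ?_ ((2⁻¹ : F) • 1 + (2⁻¹ * e⁻¹ : F) • J) ⟨_, _, rfl⟩ ?_ ?_ ?_ hDec hPair
    · rintro _ ⟨a, b, rfl⟩ _ ⟨a', b', rfl⟩
      rw [hmul, hmul]
      congr 2 <;> ring
    · rintro _ ⟨a, b, rfl⟩ _ ⟨a', b', rfl⟩
      exact ⟨_, _, hmul a b a' b'⟩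
    · rintro h hh _ ⟨a, b, rfl⟩
      obtain ⟨κ, -, hκ⟩ := hconj h hh
      exact ⟨_, _, hcj h κ a b hκ⟩
    · rintro _ ⟨a, b, rfl⟩
      refine ⟨a, -b, ?_⟩
      rw [ad_add hf, hAds, hAds, ad_one hf, hAdJ, smul_neg, neg_smul]
    · rw [hmul]
      congr 2
      · rw [he]
        field_simp
        ring
      · field_simp
        ring
    · intro h0
      apply hJsc (-e)
      have h3 := congrArg (fun X => (2 * e : F) • X) h0
      simp only [smul_add, smul_smul, smul_zero] at h3
      have h4 : (2 * e * 2⁻¹ : F) = e := by field_simp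
      have h5 : (2 * e * (2⁻¹ * e⁻¹) : F) = 1 := by field_simp
      rw [h4, h5, one_smul] at h3
      rw [neg_smul]
      exact eq_neg_of_add_eq_zero_left (by rw [add_comm]; exact h3)
    · intro h0
      apply hJsc e
      have h3 := congrArg (fun X => (2 * e : F) • X) h0
      simp only [smul_add, smul_smul] at h3
      have h4 : (2 * e * 2⁻¹ : F) = e := by field_simp
      have h5 : (2 * e * (2⁻¹ * e⁻¹) : F) = 1 := by field_simp
      rw [h4, h5, one_smul] at h3
      have h6 : (2 * e : F) • (1 : Matrix ι ι F) = e • 1 + e • 1 := by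
        rw [← add_smul]
        congr 1
        ring
      rw [h6] at h3
      exact add_left_cancel h3
  -- the field
  let K : Subalgebra F (Matrix ι ι F) :=
    { carrier := {k | ∃ a b : F, k = a • 1 + b • J}
      mul_mem' := by
        rintro _ _ ⟨a, b, rfl⟩ ⟨a', b', rfl⟩
        exact ⟨_, _, hmul a b a' b'⟩
      add_mem' := by
        rintro _ _ ⟨a, b, rfl⟩ ⟨a', b', rfl⟩
        refine ⟨a + a', b + b', ?_⟩
        rw [add_smul, add_smul]
        abel
      algebraMap_mem' := fun c => ⟨c, 0, by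
        rw [zero_smul, add_zero, Algebra.algebraMap_eq_smul_one]⟩ }
  have hmem : ∀ k, k ∈ K ↔ ∃ a b : F, k = a • 1 + b • J := fun k => Iff.rfl
  have hinj : ∀ a b : F, a • (1 : Matrix ι ι F) + b • J = 0 → a = 0 ∧ b = 0 := by
    intro a b h
    have hb : b = 0 := by
      by_contra hb
      apply hJsc (-(a / b))
      have h3 : b • J = (-a) • (1 : Matrix ι ι F) := by
        rw [neg_smul]
        exact eq_neg_of_add_eq_zero_right h
      have h4 : J = b⁻¹ • (b • J) := by rw [smul_smul, inv_mul_cancel₀ hb, one_smul]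
      rw [h4, h3, smul_smul]
      congr 1
      field_simp
    subst hb
    rw [zero_smul, add_zero] at h
    refine ⟨?_, rfl⟩
    exact (smul_eq_zero.1 h).resolve_right hone
  refine hFld K ⟨?_, ?_, ?_⟩ ?_ ?_
  · rintro _ ⟨a, b, rfl⟩ _ ⟨a', b', rfl⟩
    rw [hmul, hmul]
    congr 2 <;> ring
  · rintro _ ⟨a, b, rfl⟩ hx
    have hN : a * a - b * b * d ≠ 0 := by
      intro hN
      by_cases hb : b = 0
      · subst hb
        have ha : a = 0 := by
          have : a * a = 0 := by linear_combination hN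
          exact mul_self_eq_zero.1 this
        subst ha
        apply hx
        simp
      · apply hsq
        refine ⟨a / b, ?_⟩
        field_simp
        linear_combination -hN
    refine ⟨(a * (a * a - b * b * d)⁻¹) • 1 + (-(b * (a * a - b * b * d)⁻¹)) • J, ⟨_, _, rfl⟩, ?_⟩
    rw [hmul]
    have h3 : a * (a * (a * a - b * b * d)⁻¹) + b * -(b * (a * a - b * b * d)⁻¹) * d = 1 := by
      have : a * (a * (a * a - b * b * d)⁻¹) + b * -(b * (a * a - b * b * d)⁻¹) * d = (a * a - b * b * d) * (a * a - b * b * d)⁻¹ := by ring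
      rw [this, mul_inv_cancel₀ hN]
    have h4 : a * -(b * (a * a - b * b * d)⁻¹) + b * (a * (a * a - b * b * d)⁻¹) = 0 := by ring
    rw [h3, h4, one_smul, zero_smul, add_zero]
  · let T : (F × F) →ₗ[F] K :=
      { toFun := fun a => ⟨a.1 • 1 + a.2 • J, _, _, rfl⟩
        map_add' := fun a b => by
          apply Subtype.ext
          simp only [Prod.fst_add, Prod.snd_add, add_smul, Subsemiring.coe_add, Subalgebra.coe_toSubsemiring]
          change _ = (a.1 • 1 + a.2 • J) + (b.1 • 1 + b.2 • J)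
          abel
        map_smul' := fun c a => by
          apply Subtype.ext
          simp only [Prod.smul_fst, Prod.smul_snd, smul_eq_mul, RingHom.id_apply, mul_smul]
          change _ = c • (a.1 • 1 + a.2 • J)
          rw [smul_add] }
    have hTb : Function.Bijective T := by
      constructor
      · rw [injective_iff_map_eq_zero]
        rintro ⟨a, b⟩ h
        have h3 : a • (1 : Matrix ι ι F) + b • J = 0 := congrArg Subtype.val h
        obtain ⟨h4, h5⟩ := hinj a b h3
        rw [h4, h5]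
        rfl
      · rintro ⟨_, a, b, rfl⟩
        exact ⟨(a, b), rfl⟩
    rw [← (LinearEquiv.ofBijective T hTb).finrank_eq, Module.finrank_prod, Module.finrank_self]
  · rintro _ ⟨a, b, rfl⟩
    refine ⟨a • 1 + (-b) • J, ⟨_, _, rfl⟩, fun u v => ?_⟩
    simp only [Matrix.add_mulVec, Matrix.smul_mulVec, Matrix.one_mulVec, hf.sesq.add_left, hf.sesq.add_right, hf.sesq.smul_left, hf.sesq.smul_right, hJs, RingEquiv.refl_apply]
    ring
  · intro h hh k
    obtain ⟨κ, hκ0, hκ⟩ := hconj h hh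
    constructor
    · rintro ⟨a, b, rfl⟩
      exact ⟨_, _, hcj h κ a b hκ⟩
    · rintro ⟨a, b, hab⟩
      refine ⟨a, b * κ⁻¹, ?_⟩
      have h3 : (h : Matrix ι ι F) * (a • 1 + (b * κ⁻¹) • J) * ((h⁻¹ : GL ι F) : Matrix ι ι F) = (h : Matrix ι ι F) * k * ((h⁻¹ : GL ι F) : Matrix ι ι F) := by
        rw [hcj h κ a _ hκ, hab, mul_assoc b, inv_mul_cancel₀ hκ0, mul_one]
      have h4 := congrArg (fun X => ((h⁻¹ : GL ι F) : Matrix ι ι F) * X * (h : Matrix ι ι F)) h3
      have hih : ((h⁻¹ : GL ι F) : Matrix ι ι F) * (h : Matrix ι ι F) = 1 := by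
        rw [← Units.val_mul, inv_mul_cancel, Units.val_one]
      have hsimp : ∀ X : Matrix ι ι F, ((h⁻¹ : GL ι F) : Matrix ι ι F) * ((h : Matrix ι ι F) * X * ((h⁻¹ : GL ι F) : Matrix ι ι F)) * (h : Matrix ι ι F) = X := by
        intro X
        calc _ = (((h⁻¹ : GL ι F) : Matrix ι ι F) * (h : Matrix ι ι F)) * X * (((h⁻¹ : GL ι F) : Matrix ι ι F) * (h : Matrix ι ι F)) := by
              simp only [mul_assoc]
          _ = X := by rw [hih, one_mul, mul_one]
      rw [hsimp, hsimp] at h4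
      exact h4.symm

end Cfsg.Agent.Lib.AschS.Skew
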