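import Mathlib
import Cfsg.Agent.Lib.AschS.Skew
import Cfsg.Agent.Lib.AschF.Dich

/-!
# Tensor decompositions of an alternating form
-/

set_option autoImplicit false

namespace Cfsg.Agent.Lib.AschS.Ten

open Matrix Module Cfsg Cfsg.Geo
open Cfsg.Agent.Lib.Asch.Forms Cfsg.Agent.Lib.AschF.Adj Cfsg.Agent.Lib.AschS.Base Cfsg.Agent.Lib.AschS.Quad
open Cfsg.Agent.Lib.AschS.Skew Cfsg.Agent.Lib.AschS.Fld Cfsg.Agent.Lib.AschS.Pair
open Cfsg.Agent.Lib.Asch.Kr Cfsg.Agent.Lib.NotMax.Tensor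
open Cfsg.Agent.Lib.Geo.Basic (inv_mulVec_mulVec mulVec_inv_mulVec)
open scoped Kronecker

universe u

variable {ι : Type} [Fintype ι] [DecidableEq ι] {F : Type u} [Field F]
  {f : (ι → F) → (ι → F) → F} {H : Subgroup (GL ι F)} {a b : ℕ}

theorem kr_TT (e : ι ≃ Fin a × Fin b) (P h : GL ι F) (α : GL (Fin a) F) (β : GL (Fin b) F)
    (hh : (h : Matrix ι ι F) * (P : Matrix ι ι F) = (P : Matrix ι ι F) * kr e α β) (x : Fin a → F) (y : Fin b → F) :
    (h : Matrix ι ι F) *ᵥ TT e P x y = TT e P ((α : Matrix (Fin a) (Fin a) F) *ᵥ x) ((β : Matrix (Fin b) (Fin b) F) *ᵥ y) := by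
  unfold TT
  rw [Matrix.mulVec_mulVec, hh, ← Matrix.mulVec_mulVec, kr_mulVec, kronecker_mulVec_pure]

/-- The multiplier on the second factor. -/
theorem slot_sim {f₁ : (Fin a → F) → (Fin a → F) → F} {f₂ : (Fin b → F) → (Fin b → F) → F} {ε₁ ε₂ : F}
    (h₁ : HF (RingEquiv.refl F) ε₁ f₁) (h₂ : HF (RingEquiv.refl F) ε₂ f₂) (ha : 0 < a) (hb : 0 < b)
    (α : GL (Fin a) F) (β : GL (Fin b) F)
    (h : ∀ x x' y y', f₁ ((α : Matrix (Fin a) (Fin a) F) *ᵥ x) ((α : Matrix (Fin a) (Fin a) F) *ᵥ x') *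
      f₂ ((β : Matrix (Fin b) (Fin b) F) *ᵥ y) ((β : Matrix (Fin b) (Fin b) F) *ᵥ y') = f₁ x x' * f₂ y y') :
    ∃ μ : F, μ ≠ 0 ∧ ∀ y y', f₂ ((β : Matrix (Fin b) (Fin b) F) *ᵥ y) ((β : Matrix (Fin b) (Fin b) F) *ᵥ y') = μ * f₂ y y' := by
  classical
  let e₀ : Fin a → F := Pi.single ⟨0, ha⟩ 1
  have he₀ : e₀ ≠ 0 := by
    intro h0
    have := congrFun h0 ⟨0, ha⟩
    simp [e₀] at this
  obtain ⟨⟨x, hx⟩, -⟩ := h₁.nd e₀ he₀
  have hgen := fun y y' => h (((α⁻¹ : GL (Fin a) F) : Matrix (Fin a) (Fin a) F) *ᵥ x) (((α⁻¹ : GL (Fin a) F) : Matrix (Fin a) (Fin a) F) *ᵥ e₀) y y'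
  simp only [mulVec_inv_mulVec] at hgen
  set A := f₁ x e₀ with hA
  set B := f₁ (((α⁻¹ : GL (Fin a) F) : Matrix (Fin a) (Fin a) F) *ᵥ x) (((α⁻¹ : GL (Fin a) F) : Matrix (Fin a) (Fin a) F) *ᵥ e₀) with hB
  have hform : ∀ y y', f₂ ((β : Matrix (Fin b) (Fin b) F) *ᵥ y) ((β : Matrix (Fin b) (Fin b) F) *ᵥ y') = B / A * f₂ y y' := by
    intro y y'
    have := hgen y y'
    field_simp
    linear_combination this
  refine ⟨B / A, ?_, hform⟩
  intro h0
  let e₁ : Fin b → F := Pi.single ⟨0, hb⟩ 1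
  have he₁ : e₁ ≠ 0 := by
    intro h0
    have := congrFun h0 ⟨0, hb⟩
    simp [e₁] at this
  obtain ⟨⟨z, hz⟩, -⟩ := h₂.nd e₁ he₁
  have h3 := hform (((β⁻¹ : GL (Fin b) F) : Matrix (Fin b) (Fin b) F) *ᵥ z) (((β⁻¹ : GL (Fin b) F) : Matrix (Fin b) (Fin b) F) *ᵥ e₁)
  rw [mulVec_inv_mulVec, mulVec_inv_mulVec, h0, zero_mul] at h3
  exact hz h3

theorem kr_smul_right (e : ι ≃ Fin a × Fin b) (X : Matrix (Fin a) (Fin a) F) (Y : Matrix (Fin b) (Fin b) F) (c : F) :
    kr e X (c • Y) = c • kr e X Y := by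
  ext i j
  simp only [kr_apply, Matrix.smul_apply, smul_eq_mul]
  ring

section Two

variable [Fintype F]

/-- A tensor factor of dimension two with a symmetric form. -/
theorem two_false [Nonempty ι] (hf : HF (RingEquiv.refl F) (-1) f) (halt : ∀ v, f v v = 0)
    (hfix : ∀ g ∈ H, ∀ u v, f ((g : Matrix ι ι F) *ᵥ u) ((g : Matrix ι ι F) *ᵥ v) = f u v) (hNo : SNoClass f H) (h2 : (2 : F) ≠ 0)
    (e : ι ≃ Fin a × Fin 2) (P : GL ι F) {f₁ : (Fin a → F) → (Fin a → F) → F} {f₂ : (Fin 2 → F) → (Fin 2 → F) → F}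
    (ha : 0 < a) (h₁ : HF (RingEquiv.refl F) (-1) f₁) (h₂ : HF (RingEquiv.refl F) 1 f₂)
    (hlaw : ∀ x x' y y', f (TT e P x y) (TT e P x' y') = f₁ x x' * f₂ y y')
    (hmem : ∀ h ∈ H, ∃ (α : GL (Fin a) F) (β : GL (Fin 2) F),
      (h : Matrix ι ι F) * (P : Matrix ι ι F) = (P : Matrix ι ι F) * kr e α β) : False := by
  classical
  let e0 : Fin 2 → F := Pi.single 0 1
  let e1 : Fin 2 → F := Pi.single 1 1
  let p := f₂ e0 e0
  let q := f₂ e0 e1
  let r := f₂ e1 e1
  have hsymm : ∀ x y, f₂ x y = f₂ y x := by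
    intro x y
    rw [h₂.herm y x, RingEquiv.refl_apply, one_mul]
  have hdec : ∀ x : Fin 2 → F, x = x 0 • e0 + x 1 • e1 := by
    intro x
    funext i
    fin_cases i <;> simp [e0, e1]
  have hexp : ∀ x y, f₂ x y = x 0 * y 0 * p + x 0 * y 1 * q + x 1 * y 0 * q + x 1 * y 1 * r := by
    intro x y
    have h3 : f₂ (x 0 • e0 + x 1 • e1) (y 0 • e0 + y 1 • e1) = x 0 * y 0 * p + x 0 * y 1 * q + x 1 * y 0 * q + x 1 * y 1 * r := by
      simp only [h₂.sesq.add_left, h₂.sesq.add_right, h₂.sesq.smul_left, h₂.sesq.smul_right, RingEquiv.refl_apply]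
      rw [hsymm e1 e0]
      ring
    rw [← h3, ← hdec x, ← hdec y]
  let d : F := q * q - p * r
  have hd : d ≠ 0 := by
    intro hd0
    have hd1 : q * q - p * r = 0 := hd0
    have hv1 : (![r, -q] : Fin 2 → F) = 0 := by
      apply h₂.eq_zero_of_right
      intro x
      rw [hexp]
      simp
      linear_combination (-(x 0)) * hd1
    have hv2 : (![q, -p] : Fin 2 → F) = 0 := by
      apply h₂.eq_zero_of_right
      intro x
      rw [hexp]
      simp
      linear_combination (x 1) * hd1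
    have hr : r = 0 := by simpa using congrFun hv1 0
    have hq : q = 0 := by simpa using congrFun hv2 0
    have hp : p = 0 := by simpa using congrFun hv2 1
    have he : e0 ≠ 0 := by
      intro h0
      have := congrFun h0 0
      simp [e0] at this
    obtain ⟨⟨z, hz⟩, -⟩ := h₂.nd e0 he
    apply hz
    rw [hexp, hp, hq, hr]
    ring
  let J : Matrix (Fin 2) (Fin 2) F := !![-q, -r; p, q]
  have hJ0 : ∀ y, (J *ᵥ y) 0 = -q * y 0 - r * y 1 := by
    intro y
    simp [J, Matrix.mulVec, dotProduct, Fin.sum_univ_two]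
    ring
  have hJ1 : ∀ y, (J *ᵥ y) 1 = p * y 0 + q * y 1 := by
    intro y
    simp [J, Matrix.mulVec, dotProduct, Fin.sum_univ_two]
  have hJJ : J * J = d • 1 := by
    ext i j
    fin_cases i <;> fin_cases j <;> simp [J, Matrix.mul_apply, Fin.sum_univ_two, d] <;> ring
  have hJs : ∀ y y', f₂ (J *ᵥ y) y' = - f₂ y (J *ᵥ y') := by
    intro y y'
    rw [hexp, hexp, hJ0, hJ1, hJ0, hJ1]
    ring
  have hPi : ((P⁻¹ : GL ι F) : Matrix ι ι F) * (P : Matrix ι ι F) = 1 := by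
    rw [← Units.val_mul, inv_mul_cancel, Units.val_one]
  let JJ : Matrix ι ι F := (P : Matrix ι ι F) * kr e 1 J * ((P⁻¹ : GL ι F) : Matrix ι ι F)
  have hJJTT : ∀ x y, JJ *ᵥ TT e P x y = TT e P x (J *ᵥ y) := by
    intro x y
    simp only [JJ, TT]
    rw [← Matrix.mulVec_mulVec, inv_mulVec_mulVec, ← Matrix.mulVec_mulVec, kr_mulVec, kronecker_mulVec_pure, Matrix.one_mulVec]
  have hskew : ∀ u v, f (JJ *ᵥ u) v = - f u (JJ *ᵥ v) := by
    intro u
    refine span_TT e P (fun u => ∀ v, f (JJ *ᵥ u) v = - f u (JJ *ᵥ v)) ?_ ?_ ?_ u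
    · intro v
      simp [Sesq_zero_left hf.sesq]
    · intro u₁ u₂ h3 h4 v
      rw [Matrix.mulVec_add, hf.sesq.add_left, hf.sesq.add_left, h3, h4]
      ring
    · intro x y v
      refine span_TT e P (fun v => f (JJ *ᵥ TT e P x y) v = - f (TT e P x y) (JJ *ᵥ v)) ?_ ?_ ?_ v
      · simp [Sesq_zero_right hf.sesq]
      · intro v₁ v₂ h3 h4
        rw [Matrix.mulVec_add, hf.sesq.add_right, hf.sesq.add_right, h3, h4]
        ring
      · intro x' y'
        rw [hJJTT, hJJTT, hlaw, hlaw, hJs]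
        ring
  refine skew_false hf hfix (irr_of_noclass hf hfix hNo) h2 (fun t k D hD hle _ => hNo.dec t k D hD hle)
    (fun k D hD hts hle => pair_false hf hfix hNo hD hts hle)
    (fun K hK hadj hle => fld_false hf halt hfix hNo Nat.prime_two hK hadj hle) JJ hd ?_ hskew ?_
  · simp only [JJ]
    calc (P : Matrix ι ι F) * kr e 1 J * ((P⁻¹ : GL ι F) : Matrix ι ι F) * ((P : Matrix ι ι F) * kr e 1 J * ((P⁻¹ : GL ι F) : Matrix ι ι F))
        = (P : Matrix ι ι F) * (kr e 1 J * (((P⁻¹ : GL ι F) : Matrix ι ι F) * (P : Matrix ι ι F)) * kr e 1 J) * ((P⁻¹ : GL ι F) : Matrix ι ι F) := by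
          simp only [mul_assoc]
      _ = (P : Matrix ι ι F) * (d • 1) * ((P⁻¹ : GL ι F) : Matrix ι ι F) := by
          rw [hPi, mul_one, kr_mul, hJJ, one_mul, kr_smul_right, kr_one]
      _ = d • 1 := by
          rw [Matrix.mul_smul, Matrix.smul_mul, mul_one, ← Units.val_mul, mul_inv_cancel, Units.val_one]
  · intro h hh
    obtain ⟨α, β, hαβ⟩ := hmem h hh
    have hisom := fun x x' y y' => by
      have h3 := hfix h hh (TT e P x y) (TT e P x' y')
      rw [kr_TT e P h α β hαβ, kr_TT e P h α β hαβ, hlaw, hlaw] at h3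
      exact h3
    obtain ⟨μ, hμ, hβ⟩ := slot_sim h₁ h₂ ha (by norm_num) α β hisom
    -- the relation between `J` and `β`
    set s := (β : Matrix (Fin 2) (Fin 2) F) 0 0 with hs
    set t := (β : Matrix (Fin 2) (Fin 2) F) 0 1 with ht
    set u := (β : Matrix (Fin 2) (Fin 2) F) 1 0 with hu
    set w := (β : Matrix (Fin 2) (Fin 2) F) 1 1 with hw
    have hβ0 : ((β : Matrix (Fin 2) (Fin 2) F) *ᵥ e0) 0 = s := by simp [e0, hs]
    have hβ1 : ((β : Matrix (Fin 2) (Fin 2) F) *ᵥ e0) 1 = u := by simp [e0, hu]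
    have hβ2 : ((β : Matrix (Fin 2) (Fin 2) F) *ᵥ e1) 0 = t := by simp [e1, ht]
    have hβ3 : ((β : Matrix (Fin 2) (Fin 2) F) *ᵥ e1) 1 = w := by simp [e1, hw]
    have E1 : s * s * p + s * u * q + u * s * q + u * u * r = μ * p := by
      have h3 := hβ e0 e0
      rw [hexp, hβ0, hβ1] at h3
      exact h3
    have E2 : s * t * p + s * w * q + u * t * q + u * w * r = μ * q := by
      have h3 := hβ e0 e1
      rw [hexp, hβ0, hβ1, hβ2, hβ3] at h3
      exact h3
    have E3 : t * t * p + t * w * q + w * t * q + w * w * r = μ * r := by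
      have h3 := hβ e1 e1
      rw [hexp, hβ2, hβ3] at h3
      exact h3
    have hdet : s * w - t * u ≠ 0 := by
      have h3 : IsUnit (β : Matrix (Fin 2) (Fin 2) F).det := Matrix.isUnits_det_units β
      rw [Matrix.det_fin_two] at h3
      exact h3.ne_zero
    set D := s * w - t * u with hD
    have hkey : J * (β : Matrix (Fin 2) (Fin 2) F) = (μ / D) • ((β : Matrix (Fin 2) (Fin 2) F) * J) := by
      ext i j
      simp only [Matrix.smul_apply, smul_eq_mul]
      field_simp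
      fin_cases i <;> fin_cases j
      · simp [J, Matrix.mul_apply, Fin.sum_univ_two, ← hs, ← ht, ← hu, ← hw]
        rw [hD]
        linear_combination t * E1 - s * E2
      · simp [J, Matrix.mul_apply, Fin.sum_univ_two, ← hs, ← ht, ← hu, ← hw]
        rw [hD]
        linear_combination t * E2 - s * E3
      · simp [J, Matrix.mul_apply, Fin.sum_univ_two, ← hs, ← ht, ← hu, ← hw]
        rw [hD]
        linear_combination w * E1 - u * E2
      · simp [J, Matrix.mul_apply, Fin.sum_univ_two, ← hs, ← ht, ← hu, ← hw]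
        rw [hD]
        linear_combination w * E2 - u * E3
    have hκ0 : μ / D ≠ 0 := div_ne_zero hμ hdet
    refine ⟨(μ / D)⁻¹, inv_ne_zero hκ0, ?_⟩
    have hih : ((P⁻¹ : GL ι F) : Matrix ι ι F) * (h : Matrix ι ι F) = kr e α β * ((P⁻¹ : GL ι F) : Matrix ι ι F) := by
      calc ((P⁻¹ : GL ι F) : Matrix ι ι F) * (h : Matrix ι ι F) = ((P⁻¹ : GL ι F) : Matrix ι ι F) * ((h : Matrix ι ι F) * ((P : Matrix ι ι F) * ((P⁻¹ : GL ι F) : Matrix ι ι F))) := by
            have hPi' : (P : Matrix ι ι F) * ((P⁻¹ : GL ι F) : Matrix ι ι F) = 1 := by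
              rw [← Units.val_mul, mul_inv_cancel, Units.val_one]
            rw [hPi', mul_one]
        _ = ((P⁻¹ : GL ι F) : Matrix ι ι F) * (((h : Matrix ι ι F) * (P : Matrix ι ι F)) * ((P⁻¹ : GL ι F) : Matrix ι ι F)) := by
            simp only [mul_assoc]
        _ = (((P⁻¹ : GL ι F) : Matrix ι ι F) * (P : Matrix ι ι F)) * (kr e α β * ((P⁻¹ : GL ι F) : Matrix ι ι F)) := by
            rw [hαβ]
            simp only [mul_assoc]
        _ = _ := by rw [hPi, one_mul]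
    have h3 : (h : Matrix ι ι F) * JJ = (P : Matrix ι ι F) * kr e α ((β : Matrix (Fin 2) (Fin 2) F) * J) * ((P⁻¹ : GL ι F) : Matrix ι ι F) := by
      simp only [JJ]
      rw [← mul_assoc, ← mul_assoc, hαβ, mul_assoc (P : Matrix ι ι F), kr_mul, mul_one]
    have h4 : JJ * (h : Matrix ι ι F) = (μ / D) • ((P : Matrix ι ι F) * kr e α ((β : Matrix (Fin 2) (Fin 2) F) * J) * ((P⁻¹ : GL ι F) : Matrix ι ι F)) := by
      simp only [JJ]
      rw [mul_assoc, hih, ← mul_assoc, mul_assoc (P : Matrix ι ι F), kr_mul, one_mul, hkey, kr_smul_right, Matrix.mul_smul, Matrix.smul_mul]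
    rw [h3, h4, smul_smul, inv_mul_cancel₀ hκ0, one_smul]

/-- Odd characteristic. -/
theorem ten_odd [Nonempty ι] (hf : HF (RingEquiv.refl F) (-1) f) (halt : ∀ v, f v v = 0)
    (hfix : ∀ g ∈ H, ∀ u v, f ((g : Matrix ι ι F) *ᵥ u) ((g : Matrix ι ι F) *ᵥ v) = f u v) (hNo : SNoClass f H) (h2 : (2 : F) ≠ 0)
    (e : ι ≃ Fin a × Fin b) (P : GL ι F) {f₁ : (Fin a → F) → (Fin a → F) → F} {f₂ : (Fin b → F) → (Fin b → F) → F}
    (ha : 0 < a) (hb : 2 ≤ b) (h₁ : HF (RingEquiv.refl F) (-1) f₁) (h₂ : HF (RingEquiv.refl F) 1 f₂)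
    (hlaw : ∀ x x' y y', f (TT e P x y) (TT e P x' y') = f₁ x x' * f₂ y y')
    (hmem : ∀ h ∈ H, ∃ (α : GL (Fin a) F) (β : GL (Fin b) F),
      (h : Matrix ι ι F) * (P : Matrix ι ι F) = (P : Matrix ι ι F) * kr e α β) : False := by
  by_cases hb3 : 3 ≤ b
  · refine hNo.ten a b e P f₁ f₂ (odd_of_two_ne h2) hb3
      ⟨⟨h₁.sesq.add_left, h₁.sesq.smul_left, h₁.sesq.add_right, h₁.sesq.smul_right⟩, ?_, ?_, h₁.nd⟩
      ⟨⟨h₂.sesq.add_left, h₂.sesq.smul_left, h₂.sesq.add_right, h₂.sesq.smul_right⟩, ?_, h₂.nd⟩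
      (Cfsg.Agent.Lib.AschF.Inv.tensor_structure (σf := id) (fun _ => rfl) hf e P hlaw) (fun h hh => ?_)
    · intro v w
      rw [h₁.herm w v, RingEquiv.refl_apply]
      ring
    · intro v
      have h3 := h₁.herm v v
      rw [RingEquiv.refl_apply] at h3
      have h4 : 2 * f₁ v v = 0 := by linear_combination h3
      exact (mul_eq_zero.1 h4).resolve_left h2
    · intro u v
      rw [h₂.herm v u, RingEquiv.refl_apply, one_mul]
    · obtain ⟨α, β, hαβ⟩ := hmem h hh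
      exact mem_tensorProductSubgroup e P h α β hαβ
  · obtain rfl : b = 2 := by omega
    exact two_false hf halt hfix hNo h2 e P ha h₁ h₂ hlaw hmem

omit [Fintype ι] [DecidableEq ι] [Fintype F] in
theorem charP_two (h2 : (2 : F) = 0) : ringChar F = 2 := by
  haveI : CharP F 2 := CharTwo.of_one_ne_zero_of_two_eq_zero one_ne_zero h2
  exact ringChar.eq F 2

/-- A zero of an additive function of degree two. -/
theorem exists_ker {κ : Type} [Fintype κ] [DecidableEq κ] (h2 : (2 : F) = 0) (hcard : 2 ≤ Fintype.card κ) (g : (κ → F) → F)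
    (hadd : ∀ u v, g (u + v) = g u + g v) (hsm : ∀ (c : F) v, g (c • v) = c ^ 2 * g v) :
    ∃ v, v ≠ 0 ∧ g v = 0 := by
  classical
  obtain ⟨i, j, hij⟩ := Fintype.exists_pair_of_one_lt_card (α := κ) (by omega)
  have hne : ∀ l : κ, (Pi.single l (1 : F) : κ → F) ≠ 0 := by
    intro l h0
    have := congrFun h0 l
    simp at this
  by_cases h0 : g (Pi.single i 1) = 0
  · exact ⟨_, hne i, h0⟩
  obtain ⟨c, hc⟩ := FiniteField.isSquare_of_char_two (charP_two h2) (g (Pi.single j 1) / g (Pi.single i 1))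
  refine ⟨c • Pi.single i 1 + Pi.single j 1, ?_, ?_⟩
  · intro h3
    have := congrFun h3 j
    simp [Pi.single_apply, hij.symm] at this
  · rw [hadd, hsm, pow_two, ← hc]
    field_simp
    linear_combination (g (Pi.single j 1)) * h2

/-- Invariant subspaces under an irreducible group. -/
theorem irr_inv {W : Submodule F (ι → F)} (hIrr : ActsIrreducibly (matrixSet H))
    (hW : ∀ g ∈ H, ∀ v ∈ W, (g : Matrix ι ι F) *ᵥ v ∈ W) : W = ⊥ ∨ W = ⊤ :=
  hIrr W (by
    rintro _ ⟨g, hg, rfl⟩ _ ⟨v, hv, rfl⟩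
    exact hW g hg v hv)

omit [Fintype F] in
/-- A proper subspace is orthogonal to a non-zero vector. -/
theorem exists_rep {κ : Type} [Fintype κ] [DecidableEq κ] {f₂ : (κ → F) → (κ → F) → F} {ε : F} (h : HF (RingEquiv.refl F) ε f₂)
    (W : Submodule F (κ → F)) (hW : W ≠ ⊤) : ∃ y₁, y₁ ≠ 0 ∧ ∀ y ∈ W, f₂ y y₁ = 0 := by
  classical
  obtain ⟨l, hl, hle⟩ := Submodule.exists_le_ker_of_lt_top W (lt_top_iff_ne_top.2 hW)
  have hG := gram_unit h.sesq h.nd
  have hdet : IsUnit (gram f₂).det := (Matrix.isUnit_iff_isUnit_det _).1 hG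
  let c : κ → F := fun i => l (Pi.single i 1)
  let y₁ : κ → F := (gram f₂)⁻¹ *ᵥ c
  have hform : ∀ x, f₂ x y₁ = l x := by
    intro x
    rw [eq_gram h.sesq]
    have h3 : (RingEquiv.refl F) ∘ y₁ = y₁ := rfl
    rw [h3]
    simp only [y₁]
    rw [Matrix.mulVec_mulVec, Matrix.mul_nonsing_inv _ hdet, Matrix.one_mulVec]
    conv_rhs => rw [sum_single x]
    rw [map_sum]
    simp only [dotProduct, map_smul, smul_eq_mul, c]
  refine ⟨y₁, ?_, fun y hy => ?_⟩
  · intro h0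
    apply hl
    ext x
    have := hform (Pi.single x 1)
    rw [h0, Sesq_zero_right h.sesq] at this
    simpa using this.symm
  · rw [hform]
    exact hle hy

/-- Even characteristic: both factors alternating. -/
theorem ten_even_Q (hf : HF (RingEquiv.refl F) (-1) f) (halt : ∀ v, f v v = 0)
    (hfix : ∀ g ∈ H, ∀ u v, f ((g : Matrix ι ι F) *ᵥ u) ((g : Matrix ι ι F) *ᵥ v) = f u v) (hNo : SNoClass f H) (h2 : (2 : F) = 0)
    (e : ι ≃ Fin a × Fin b) (P : GL ι F) {f₁ : (Fin a → F) → (Fin a → F) → F} {f₂ : (Fin b → F) → (Fin b → F) → F}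
    (ha₁ : ∀ x, f₁ x x = 0) (ha₂ : ∀ y, f₂ y y = 0)
    (hlaw : ∀ x x' y y', f (TT e P x y) (TT e P x' y') = f₁ x x' * f₂ y y')
    (hmem : ∀ h ∈ H, ∃ (α : GL (Fin a) F) (β : GL (Fin b) F),
      (h : Matrix ι ι F) * (P : Matrix ι ι F) = (P : Matrix ι ι F) * kr e α β) : False := by
  classical
  obtain ⟨Q, hsm, hpol, h0⟩ := exists_Q_transport h2 hf.sesq halt e P
  have hsingle : ∀ (i : Fin a) (j : Fin b), pureT (Pi.single i (1 : F)) (Pi.single j (1 : F)) = Pi.single (i, j) 1 := by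
    intro i j
    funext z
    simp only [pureT, Pi.single_apply]
    by_cases h1 : z.1 = i
    · by_cases h3 : z.2 = j
      · have : z = (i, j) := Prod.ext h1 h3
        simp [this]
      · have : z ≠ (i, j) := fun h => h3 (by rw [h])
        simp [this, h3]
    · have : z ≠ (i, j) := fun h => h1 (by rw [h])
      simp [this, h1]
  have h1 : ∀ i j, Q (TT e P (Pi.single i 1) (Pi.single j 1)) = 0 := by
    intro i j
    simp only [TT]
    rw [hsingle]
    exact h0 _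
  have h3 : ∀ i y, Q (TT e P (Pi.single i 1) y) = 0 := by
    intro i y
    refine add_hom_zero (fun y => Q (TT e P (Pi.single i 1) y)) (fun u v => ?_) (fun c v => ?_) (h1 i) y
    · rw [TT_add_right, hpol, hlaw, ha₁, zero_mul, add_zero]
    · rw [TT_smul_right, hsm]
  have h4 : ∀ x y, Q (TT e P x y) = 0 := by
    intro x y
    refine add_hom_zero (fun x => Q (TT e P x y)) (fun u v => ?_) (fun c v => ?_) (fun i => h3 i y) x
    · rw [TT_add_left, hpol, hlaw, ha₂, mul_zero, add_zero]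
    · rw [TT_smul_left, hsm]
  refine quad_false hf hNo h2 hsm hpol fun h hh v => ?_
  obtain ⟨α, β, hαβ⟩ := hmem h hh
  refine Q_fixed hsm hpol (S := {w | ∃ x y, w = TT e P x y}) (fun w => ?_) h (hfix h hh) ?_ v
  · refine span_TT e P (fun w => w ∈ Submodule.span F {w | ∃ x y, w = TT e P x y}) (Submodule.zero_mem _) (fun u v hu hv => Submodule.add_mem _ hu hv)
      (fun x y => Submodule.subset_span ⟨x, y, rfl⟩) w
  · rintro _ ⟨x, y, rfl⟩
    rw [kr_TT e P h α β hαβ, h4, h4]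

/-- Even characteristic: one alternating factor. -/
theorem ten_even_one (hf : HF (RingEquiv.refl F) (-1) f)
    (hfix : ∀ g ∈ H, ∀ u v, f ((g : Matrix ι ι F) *ᵥ u) ((g : Matrix ι ι F) *ᵥ v) = f u v) (hIrr : ActsIrreducibly (matrixSet H)) (h2 : (2 : F) = 0)
    (e : ι ≃ Fin a × Fin b) (P : GL ι F) {f₁ : (Fin a → F) → (Fin a → F) → F} {f₂ : (Fin b → F) → (Fin b → F) → F}
    (ha : 0 < a) (hb : 2 ≤ b) (h₁ : HF (RingEquiv.refl F) 1 f₁) (h₂ : HF (RingEquiv.refl F) 1 f₂)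
    {y₀ : Fin b → F} (hy₀ : f₂ y₀ y₀ ≠ 0)
    (hlaw : ∀ x x' y y', f (TT e P x y) (TT e P x' y') = f₁ x x' * f₂ y y')
    (hmem : ∀ h ∈ H, ∃ (α : GL (Fin a) F) (β : GL (Fin b) F),
      (h : Matrix ι ι F) * (P : Matrix ι ι F) = (P : Matrix ι ι F) * kr e α β) : False := by
  classical
  let g : (Fin b → F) → F := fun y => f₂ y y
  have hsymm : ∀ x y, f₂ x y = f₂ y x := by
    intro x y
    rw [h₂.herm y x, RingEquiv.refl_apply, one_mul]
  have hadd : ∀ u v, g (u + v) = g u + g v := by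
    intro u v
    simp only [g, h₂.sesq.add_left, h₂.sesq.add_right]
    rw [hsymm v u]
    linear_combination (f₂ u v) * h2
  have hsm : ∀ (c : F) v, g (c • v) = c ^ 2 * g v := by
    intro c v
    simp only [g, h₂.sesq.smul_left, h₂.sesq.smul_right, RingEquiv.refl_apply]
    ring
  let W₂ : Submodule F (Fin b → F) :=
    { carrier := {y | g y = 0}
      add_mem' := by
        intro u v hu hv
        change g (u + v) = 0
        rw [hadd, show g u = 0 from hu, show g v = 0 from hv, add_zero]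
      zero_mem' := by
        change g 0 = 0
        simpa using hsm 0 0
      smul_mem' := by
        intro c v hv
        change g (c • v) = 0
        rw [hsm, show g v = 0 from hv, mul_zero] }
  have hW₂ : W₂ ≠ ⊤ := by
    intro h
    have : y₀ ∈ W₂ := by
      rw [h]
      trivial
    exact hy₀ this
  obtain ⟨y₁, hy₁, hy₁W⟩ := exists_rep h₂ W₂ hW₂
  let W : Submodule F (ι → F) := Submodule.span F {v | ∃ x y, g y = 0 ∧ v = TT e P x y}
  have hinv : ∀ h ∈ H, ∀ v ∈ W, (h : Matrix ι ι F) *ᵥ v ∈ W := by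
    intro h hh v hv
    obtain ⟨α, β, hαβ⟩ := hmem h hh
    induction hv using Submodule.span_induction with
    | mem v hv =>
      obtain ⟨x, y, hy, rfl⟩ := hv
      rw [kr_TT e P h α β hαβ]
      apply Submodule.subset_span
      refine ⟨_, _, ?_, rfl⟩
      have hisom := fun x x' y y' => by
        have h3 := hfix h hh (TT e P x y) (TT e P x' y')
        rw [kr_TT e P h α β hαβ, kr_TT e P h α β hαβ, hlaw, hlaw] at h3
        exact h3
      obtain ⟨μ, -, hβ⟩ := slot_sim h₁ h₂ ha (by omega) α β hisom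
      change f₂ _ _ = 0
      rw [hβ, show f₂ y y = 0 from hy, mul_zero]
    | zero =>
      rw [Matrix.mulVec_zero]
      exact W.zero_mem
    | add x y _ _ hx hy =>
      rw [Matrix.mulVec_add]
      exact W.add_mem hx hy
    | smul c x _ hx =>
      rw [Matrix.mulVec_smul]
      exact W.smul_mem c hx
  have hx₀ : (Pi.single ⟨0, ha⟩ 1 : Fin a → F) ≠ 0 := by
    intro h0
    have := congrFun h0 ⟨0, ha⟩
    simp at this
  rcases irr_inv hIrr hinv with h0 | h0
  · obtain ⟨v, hv, hgv⟩ := exists_ker h2 (by rw [Fintype.card_fin]; exact hb) g hadd hsm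
    have h3 : TT e P (Pi.single ⟨0, ha⟩ 1) v ∈ W := Submodule.subset_span ⟨_, _, hgv, rfl⟩
    rw [h0] at h3
    exact TT_ne_zero e P hx₀ hv (by simpa using h3)
  · -- the orthogonal vector
    have hzero : ∀ w ∈ W, f w (TT e P (Pi.single ⟨0, ha⟩ 1) y₁) = 0 := by
      intro w hw
      induction hw using Submodule.span_induction with
      | mem v hv =>
        obtain ⟨x, y, hy, rfl⟩ := hv
        rw [hlaw, hy₁W y hy, mul_zero]
      | zero => exact Sesq_zero_left hf.sesq _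
      | add x y _ _ hx hy => rw [hf.sesq.add_left, hx, hy, add_zero]
      | smul c x _ hx => rw [hf.sesq.smul_left, hx, mul_zero]
    apply TT_ne_zero e P hx₀ hy₁
    apply hf.eq_zero_of_right
    intro u
    exact hzero u (by rw [h0]; trivial)

/-- Swapping the factors. -/
theorem ten_swap (e : ι ≃ Fin a × Fin b) (P : GL ι F) {f₁ : (Fin a → F) → (Fin a → F) → F} {f₂ : (Fin b → F) → (Fin b → F) → F}
    (hlaw : ∀ x x' y y', f (TT e P x y) (TT e P x' y') = f₁ x x' * f₂ y y')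
    (hmem : ∀ h ∈ H, ∃ (α : GL (Fin a) F) (β : GL (Fin b) F),
      (h : Matrix ι ι F) * (P : Matrix ι ι F) = (P : Matrix ι ι F) * kr e α β) :
    let e' : ι ≃ Fin b × Fin a := e.trans (Equiv.prodComm _ _)
    (∀ y y' x x', f (TT e' P y x) (TT e' P y' x') = f₂ y y' * f₁ x x') ∧
    (∀ h ∈ H, ∃ (β : GL (Fin b) F) (α : GL (Fin a) F),
      (h : Matrix ι ι F) * (P : Matrix ι ι F) = (P : Matrix ι ι F) * kr e' β α) := by
  intro e'
  have hTT : ∀ y x, TT e' P y x = TT e P x y := by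
    intro y x
    simp only [TT]
    congr 1
    funext i
    simp [e', pureT, mul_comm]
  refine ⟨fun y y' x x' => ?_, fun h hh => ?_⟩
  · rw [hTT, hTT, hlaw, mul_comm]
  · obtain ⟨α, β, hαβ⟩ := hmem h hh
    refine ⟨β, α, ?_⟩
    rw [hαβ]
    congr 1
    ext i j
    simp only [kr_apply, e', Equiv.trans_apply, Equiv.prodComm_apply, Prod.fst_swap, Prod.snd_swap]
    ring

/-- Tensor decompositions are excluded. -/
theorem ten_false [Nonempty ι] (hf : HF (RingEquiv.refl F) (-1) f) (halt : ∀ v, f v v = 0)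
    (hfix : ∀ g ∈ H, ∀ u v, f ((g : Matrix ι ι F) *ᵥ u) ((g : Matrix ι ι F) *ᵥ v) = f u v) (hNo : SNoClass f H)
    (e : ι ≃ Fin a × Fin b) (P : GL ι F) {f₁ : (Fin a → F) → (Fin a → F) → F} {f₂ : (Fin b → F) → (Fin b → F) → F} {ε₁ ε₂ : F}
    (ha : 2 ≤ a) (hb : 2 ≤ b) (h₁ : HF (RingEquiv.refl F) ε₁ f₁) (h₂ : HF (RingEquiv.refl F) ε₂ f₂) (hε : ε₁ * ε₂ = -1)
    (hlaw : ∀ x x' y y', f (TT e P x y) (TT e P x' y') = f₁ x x' * f₂ y y')
    (hmem : ∀ h ∈ H, ∃ (α : GL (Fin a) F) (β : GL (Fin b) F),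
      (h : Matrix ι ι F) * (P : Matrix ι ι F) = (P : Matrix ι ι F) * kr e α β) : False := by
  classical
  have hsq : ∀ {n : ℕ} {g : (Fin n → F) → (Fin n → F) → F} {ε : F}, 0 < n → HF (RingEquiv.refl F) ε g → ε * ε = 1 := by
    intro n g ε hn hg
    have he : (Pi.single ⟨0, hn⟩ 1 : Fin n → F) ≠ 0 := by
      intro h0
      have := congrFun h0 ⟨0, hn⟩
      simp at this
    obtain ⟨⟨z, hz⟩, -⟩ := hg.nd _ he
    have h3 := hg.herm z (Pi.single ⟨0, hn⟩ 1)
    have h4 := hg.herm (Pi.single ⟨0, hn⟩ 1) z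
    rw [RingEquiv.refl_apply] at h3 h4
    rw [h3] at h4
    have h5 : (ε * ε - 1) * g z (Pi.single ⟨0, hn⟩ 1) = 0 := by linear_combination -h4
    have h6 := (mul_eq_zero.1 h5).resolve_right hz
    linear_combination h6
  have he₁ := hsq (by omega) h₁
  have hIrr := irr_of_noclass hf hfix hNo
  obtain ⟨hlaw', hmem'⟩ := ten_swap e P hlaw hmem
  by_cases h2 : (2 : F) = 0
  · have hε₁ : ε₁ = 1 := by
      have h3 : (ε₁ - 1) * (ε₁ - 1) = 0 := by linear_combination he₁ + (1 - ε₁) * h2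
      have := mul_self_eq_zero.1 h3
      linear_combination this
    subst hε₁
    have hε₂ : ε₂ = 1 := by linear_combination hε - h2
    subst hε₂
    by_cases h3 : ∀ x, f₁ x x = 0
    · by_cases h4 : ∀ y, f₂ y y = 0
      · exact ten_even_Q hf halt hfix hNo h2 e P h3 h4 hlaw hmem
      · push Not at h4
        obtain ⟨y₀, hy₀⟩ := h4
        exact ten_even_one hf hfix hIrr h2 e P (by omega) hb h₁ h₂ hy₀ hlaw hmem
    · push Not at h3
      obtain ⟨x₀, hx₀⟩ := h3
      exact ten_even_one hf hfix hIrr h2 _ P (by omega) ha h₂ h₁ hx₀ hlaw' hmem'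
  · have h3 : (ε₁ - 1) * (ε₁ + 1) = 0 := by linear_combination he₁
    rcases mul_eq_zero.1 h3 with h4 | h4
    · have hε₁ : ε₁ = 1 := by linear_combination h4
      subst hε₁
      have hε₂ : ε₂ = -1 := by linear_combination hε
      subst hε₂
      exact ten_odd hf halt hfix hNo h2 _ P (by omega) ha h₂ h₁ hlaw' hmem'
    · have hε₁ : ε₁ = -1 := by linear_combination h4
      subst hε₁
      have hε₂ : ε₂ = 1 := by linear_combination -hε
      subst hε₂
      exact ten_odd hf halt hfix hNo h2 e P (by omega) hb h₁ h₂ hlaw hmem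

end Two

end Cfsg.Agent.Lib.AschS.Ten
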