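import Mathlib
import Cfsg.Agent.Lib.AschF.TenGrp

/-!
# The quaternion group in `GL₂` of the field with three elements
-/

set_option autoImplicit false

namespace Cfsg.Agent.Lib.AschS.Q8

open Matrix Module Cfsg Cfsg.Geo
open Cfsg.Agent.Lib.Asch.XT Cfsg.Agent.Lib.Asch.SC Cfsg.Agent.Lib.AschF.TenGrp

universe u

variable {F : Type u} [Field F]

/-- The elements. -/
def B (F : Type u) [Field F] : Fin 4 → Matrix (Fin 2) (Fin 2) F :=
  ![1, !![0, 1; -1, 0], !![1, 1; 1, -1], !![1, -1; -1, -1]]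

/-- The multiplication table. -/
def kk : Fin 4 → Fin 4 → Fin 4 := ![![0, 1, 2, 3], ![1, 0, 3, 2], ![2, 3, 0, 1], ![3, 2, 1, 0]]

/-- The signs. -/
def tt (F : Type u) [Field F] : Fin 4 → Fin 4 → F := ![![1, 1, 1, 1], ![1, -1, 1, -1], ![1, -1, -1, 1], ![1, 1, -1, -1]]

theorem B_zero : B F 0 = 1 := rfl

theorem tt_sq (i j : Fin 4) : tt F i j * tt F i j = 1 := by
  fin_cases i <;> fin_cases j <;> simp [tt]

theorem kk_self (i : Fin 4) : kk i i = 0 := by
  revert i
  decide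

theorem B_table (h3 : (3 : F) = 0) (i j : Fin 4) : B F i * B F j = tt F i j • B F (kk i j) := by
  fin_cases i <;> fin_cases j <;> ext a b <;> fin_cases a <;> fin_cases b <;>
    simp [B, tt, kk, Matrix.mul_apply, Fin.sum_univ_two] <;>
    first
      | done
      | linear_combination h3
      | linear_combination -h3

theorem kk_comm (i j : Fin 4) : kk i j = kk j i := by
  revert i j
  decide

theorem B_comm (h3 : (3 : F) = 0) (i j : Fin 4) : B F i * B F j = (tt F i j * tt F j i) • (B F j * B F i) := by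
  rw [B_table h3 i j, B_table h3 j i, kk_comm j i, smul_smul, mul_assoc, tt_sq, mul_one]

theorem tt_anti {i j : Fin 4} (hi : i ≠ 0) (hj : j ≠ 0) (hij : i ≠ j) : tt F i j * tt F j i = -1 := by
  revert i j
  intro i j
  fin_cases i <;> fin_cases j <;> simp [tt]

theorem tt_self {i : Fin 4} (hi : i ≠ 0) : tt F i i = -1 := by
  revert i
  intro i
  fin_cases i <;> simp [tt]

theorem B_self (h3 : (3 : F) = 0) (i : Fin 4) : B F i * B F i = tt F i i • 1 := by
  rw [B_table h3 i i, kk_self, B_zero]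

theorem B_det (h3 : (3 : F) = 0) (i : Fin 4) : (B F i).det = 1 := by
  fin_cases i
  · simp [B]
  · simp [B, Matrix.det_fin_two]
  · simp [B, Matrix.det_fin_two]
    linear_combination -h3
  · simp [B, Matrix.det_fin_two]
    linear_combination -h3

theorem B_trace {i : Fin 4} (hi : i ≠ 0) : Matrix.trace (B F i) = 0 := by
  revert i
  intro i
  fin_cases i <;> simp [B, Matrix.trace_fin_two]

/-- The quaternion matrices as invertible matrices. -/
def BG (h3 : (3 : F) = 0) (i : Fin 4) : GL (Fin 2) F where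
  val := B F i
  inv := tt F i i • B F i
  val_inv := by
    rw [Matrix.mul_smul, B_self h3, smul_smul, tt_sq, one_smul]
  inv_val := by
    rw [Matrix.smul_mul, B_self h3, smul_smul, tt_sq, one_smul]

/-- The quaternion group. -/
def Q8G (h3 : (3 : F) = 0) : Subgroup (GL (Fin 2) F) where
  carrier := {g | ∃ (i : Fin 4) (s : F), s * s = 1 ∧ (g : Matrix (Fin 2) (Fin 2) F) = s • B F i}
  mul_mem' := by
    rintro a b ⟨i, s, hs, ha⟩ ⟨j, t, ht, hb⟩
    refine ⟨kk i j, s * t * tt F i j, ?_, ?_⟩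
    · calc s * t * tt F i j * (s * t * tt F i j) = (s * s) * (t * t) * (tt F i j * tt F i j) := by ring
        _ = 1 := by rw [hs, ht, tt_sq, one_mul, one_mul]
    · rw [Units.val_mul, ha, hb, Matrix.smul_mul, Matrix.mul_smul, B_table h3, smul_smul, smul_smul, mul_assoc]
  one_mem' := ⟨0, 1, by ring, by simp [B_zero]⟩
  inv_mem' := by
    rintro a ⟨i, s, hs, ha⟩
    refine ⟨i, tt F i i * s, ?_, ?_⟩
    · calc tt F i i * s * (tt F i i * s) = (tt F i i * tt F i i) * (s * s) := by ring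
        _ = 1 := by rw [hs, tt_sq, one_mul]
    · apply Units.inv_eq_of_mul_eq_one_right
      rw [ha, Matrix.smul_mul, Matrix.mul_smul, B_self h3, smul_smul, smul_smul]
      have : s * (tt F i i * s) * tt F i i = (s * s) * (tt F i i * tt F i i) := by ring
      rw [this, hs, tt_sq, one_mul, one_smul]

theorem mem_Q8G {h3 : (3 : F) = 0} {g : GL (Fin 2) F} :
    g ∈ Q8G h3 ↔ ∃ (i : Fin 4) (s : F), s * s = 1 ∧ (g : Matrix (Fin 2) (Fin 2) F) = s • B F i := Iff.rfl

theorem BG_mem (h3 : (3 : F) = 0) (i : Fin 4) : BG h3 i ∈ Q8G h3 := ⟨i, 1, by ring, by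
  rw [one_smul]
  rfl⟩

theorem Q8_det {h3 : (3 : F) = 0} {g : GL (Fin 2) F} (hg : g ∈ Q8G h3) : (g : Matrix (Fin 2) (Fin 2) F).det = 1 := by
  obtain ⟨i, s, hs, ha⟩ := hg
  rw [ha, Matrix.det_smul, B_det h3, mul_one, Fintype.card_fin, pow_two, hs]

/-- Matrices of determinant one and trace zero. -/
theorem exists_of_det_trace (h3 : (3 : F) = 0) (hF : ∀ x : F, x = 0 ∨ x = 1 ∨ x = -1) (M : Matrix (Fin 2) (Fin 2) F) (hd : M.det = 1) (ht : Matrix.trace M = 0) :
    ∃ i : Fin 4, ∃ s : F, s * s = 1 ∧ M = s • B F i := by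
  rw [Matrix.det_fin_two] at hd
  rw [Matrix.trace_fin_two] at ht
  have h11 : M 1 1 = - M 0 0 := by linear_combination ht
  have hd' : - (M 0 0 * M 0 0) - M 0 1 * M 1 0 = 1 := by
    rw [h11] at hd
    linear_combination hd
  have hM : ∀ a b c : F, M 0 0 = a → M 0 1 = b → M 1 0 = c → M = !![a, b; c, -a] := by
    intro a b c h1 h2 h4
    ext i j
    fin_cases i <;> fin_cases j
    · simpa using h1
    · simpa using h2
    · simpa using h4
    · simp
      rw [h11, h1]
  have h1ne : (1 : F) ≠ 0 := one_ne_zero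
  have hX : ∀ (s : F), s = 1 ∨ s = -1 → ∀ i : Fin 4, M = s • B F i → ∃ i : Fin 4, ∃ s : F, s * s = 1 ∧ M = s • B F i := by
    rintro s hs i h
    refine ⟨i, s, ?_, h⟩
    rcases hs with rfl | rfl <;> ring
  rcases hF (M 0 0) with ha | ha | ha <;> rcases hF (M 0 1) with hb | hb | hb <;> rcases hF (M 1 0) with hc | hc | hc <;> rw [ha, hb, hc] at hd'
  all_goals first
    | (exfalso; apply h1ne; linear_combination -hd'; done)
    | (exfalso; apply h1ne; linear_combination hd' + h3; done)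
    | (refine hX 1 (Or.inl rfl) 1 ?_; rw [hM _ _ _ ha hb hc]; ext i j; fin_cases i <;> fin_cases j <;> simp [B]; done)
    | (refine hX (-1) (Or.inr rfl) 1 ?_; rw [hM _ _ _ ha hb hc]; ext i j; fin_cases i <;> fin_cases j <;> simp [B]; done)
    | (refine hX 1 (Or.inl rfl) 2 ?_; rw [hM _ _ _ ha hb hc]; ext i j; fin_cases i <;> fin_cases j <;> simp [B]; done)
    | (refine hX (-1) (Or.inr rfl) 2 ?_; rw [hM _ _ _ ha hb hc]; ext i j; fin_cases i <;> fin_cases j <;> simp [B]; done)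
    | (refine hX 1 (Or.inl rfl) 3 ?_; rw [hM _ _ _ ha hb hc]; ext i j; fin_cases i <;> fin_cases j <;> simp [B]; done)
    | (refine hX (-1) (Or.inr rfl) 3 ?_; rw [hM _ _ _ ha hb hc]; ext i j; fin_cases i <;> fin_cases j <;> simp [B]; done)

/-- The group is normal in the general linear group. -/
theorem Q8_normal (h3 : (3 : F) = 0) (hF : ∀ x : F, x = 0 ∨ x = 1 ∨ x = -1) (t : GL (Fin 2) F) {x : GL (Fin 2) F} (hx : x ∈ Q8G h3) :
    t * x * t⁻¹ ∈ Q8G h3 := by
  obtain ⟨i, s, hs, ha⟩ := hx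
  have htt : (t : Matrix (Fin 2) (Fin 2) F) * ((t⁻¹ : GL (Fin 2) F) : Matrix (Fin 2) (Fin 2) F) = 1 := by
    rw [← Units.val_mul, mul_inv_cancel, Units.val_one]
  by_cases hi : i = 0
  · subst hi
    refine ⟨0, s, hs, ?_⟩
    rw [Units.val_mul, Units.val_mul, ha, B_zero, Matrix.mul_smul, mul_one, Matrix.smul_mul, htt]
  · refine exists_of_det_trace h3 hF _ ?_ ?_
    · rw [Units.val_mul, Units.val_mul, Matrix.det_mul, Matrix.det_mul, mul_right_comm, ← Matrix.det_mul, htt, Matrix.det_one, one_mul]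
      exact Q8_det (h3 := h3) ⟨i, s, hs, ha⟩
    · rw [Units.val_mul, Units.val_mul, Matrix.trace_mul_comm, ← mul_assoc, ← Units.val_mul, inv_mul_cancel, Units.val_one, one_mul, ha,
        Matrix.trace_smul, B_trace hi, smul_zero]

/-- Alternating forms in dimension two are preserved by matrices of determinant one. -/
theorem alt_det {A : (Fin 2 → F) → (Fin 2 → F) → F} (hA : Cfsg.Agent.Lib.Asch.Forms.Sesq (RingEquiv.refl F) A) (halt : ∀ x, A x x = 0)
    (g : Matrix (Fin 2) (Fin 2) F) (hg : g.det = 1) (x y : Fin 2 → F) : A (g *ᵥ x) (g *ᵥ y) = A x y := by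
  let e0 : Fin 2 → F := Pi.single 0 1
  let e1 : Fin 2 → F := Pi.single 1 1
  have hdec : ∀ x : Fin 2 → F, x = x 0 • e0 + x 1 • e1 := by
    intro x
    funext i
    fin_cases i <;> simp [e0, e1]
  have h01 : A e1 e0 = - A e0 e1 := by
    have h1 := halt (e0 + e1)
    rw [hA.add_left, hA.add_right, hA.add_right, halt, halt] at h1
    linear_combination h1
  have hexp : ∀ x y, A x y = (x 0 * y 1 - x 1 * y 0) * A e0 e1 := by
    intro x y
    have h3 : A (x 0 • e0 + x 1 • e1) (y 0 • e0 + y 1 • e1) = (x 0 * y 1 - x 1 * y 0) * A e0 e1 := by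
      simp only [hA.add_left, hA.add_right, hA.smul_left, hA.smul_right, RingEquiv.refl_apply, halt, h01]
      ring
    rw [← h3, ← hdec x, ← hdec y]
  rw [hexp, hexp x y]
  congr 1
  rw [Matrix.det_fin_two] at hg
  simp only [Matrix.mulVec, dotProduct, Fin.sum_univ_two]
  linear_combination (x 0 * y 1 - x 1 * y 0) * hg

/-- The group spans the matrix algebra. -/
theorem Q8_span (h3 : (3 : F) = 0) (h2 : (2 : F) ≠ 0) : Submodule.span F (matrixSet (Q8G h3)) = ⊤ := by
  rw [eq_top_iff]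
  intro M _
  have hBm : ∀ i, B F i ∈ Submodule.span F (matrixSet (Q8G h3)) := fun i => Submodule.subset_span ⟨BG h3 i, BG_mem h3 i, rfl⟩
  have hM : M = ((2⁻¹ : F) * (M 0 0 + M 1 1)) • B F 0 + ((2⁻¹ : F) * (M 0 1 - M 1 0)) • B F 1 +
      ((2⁻¹ : F) * 2⁻¹ * (M 0 0 - M 1 1 + M 0 1 + M 1 0)) • B F 2 + ((2⁻¹ : F) * 2⁻¹ * (M 0 0 - M 1 1 - M 0 1 - M 1 0)) • B F 3 := by
    ext i j
    fin_cases i <;> fin_cases j <;> simp [B] <;> field_simp <;> ring
  rw [hM]
  exact Submodule.add_mem _ (Submodule.add_mem _ (Submodule.add_mem _ (Submodule.smul_mem _ _ (hBm 0)) (Submodule.smul_mem _ _ (hBm 1)))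
    (Submodule.smul_mem _ _ (hBm 2))) (Submodule.smul_mem _ _ (hBm 3))

/-- The group has scalar commutators. -/
theorem Q8_ScC (h3 : (3 : F) = 0) : ScC (Q8G h3) := by
  rintro x ⟨i, s, hs, ha⟩ y ⟨j, t, ht, hb⟩
  refine ⟨tt F i j * tt F j i, ?_⟩
  rw [ha, hb]
  simp only [Matrix.smul_mul, Matrix.mul_smul, smul_smul]
  rw [B_comm h3 i j, smul_smul]
  congr 1
  ring

/-- Squares are scalars of square one. -/
theorem Q8_sq (h3 : (3 : F) = 0) {g : GL (Fin 2) F} (hg : g ∈ Q8G h3) : ∃ m : Fˣ, m ^ 2 = 1 ∧ g ^ 2 = sc m := by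
  obtain ⟨i, s, hs, ha⟩ := hg
  have h0 : tt F i i ≠ 0 := by
    intro h
    have := tt_sq (F := F) i i
    rw [h, mul_zero] at this
    exact zero_ne_one this
  refine ⟨Units.mk0 _ h0, ?_, ?_⟩
  · apply Units.ext
    rw [Units.val_pow_eq_pow_val, Units.val_mk0, Units.val_one, pow_two, tt_sq]
  · apply Units.ext
    rw [sc_val, Units.val_mk0, pow_two, Units.val_mul, ha, Matrix.smul_mul, Matrix.mul_smul, B_self h3, smul_smul, smul_smul, hs, one_mul]

/-- Non-central elements have anticommuting partners. -/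
theorem Q8_slot (h3 : (3 : F) = 0) {g : GL (Fin 2) F} (hg : g ∈ Q8G h3) (hgZ : g ∉ scalars (Fin 2) F) :
    ∃ b ∈ Q8G h3, (b * b = sc (-1)) ∧ ((g : Matrix (Fin 2) (Fin 2) F) * (b : Matrix (Fin 2) (Fin 2) F) = (-1 : F) • ((b : Matrix (Fin 2) (Fin 2) F) * (g : Matrix (Fin 2) (Fin 2) F))) ∧
      ∀ g' ∈ Q8G h3, ∃ d : F, (d = 1 ∨ d = -1) ∧ (g' : Matrix (Fin 2) (Fin 2) F) * (b : Matrix (Fin 2) (Fin 2) F) = d • ((b : Matrix (Fin 2) (Fin 2) F) * (g' : Matrix (Fin 2) (Fin 2) F)) := by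
  obtain ⟨i, s, hs, ha⟩ := hg
  have hi : i ≠ 0 := by
    rintro rfl
    apply hgZ
    have hs0 : s ≠ 0 := by
      rintro rfl
      rw [mul_zero] at hs
      exact zero_ne_one hs
    rw [mem_scalars_iff]
    exact ⟨Units.mk0 s hs0, by rw [ha, B_zero, Units.val_mk0]⟩
  obtain ⟨l, hl0, hli⟩ : ∃ l : Fin 4, l ≠ 0 ∧ i ≠ l := by
    by_cases h1 : i = 1
    · exact ⟨2, by decide, by rw [h1]; decide⟩
    · exact ⟨1, by decide, h1⟩
  refine ⟨BG h3 l, BG_mem h3 l, ?_, ?_, ?_⟩
  · apply Units.ext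
    rw [Units.val_mul, sc_val]
    change B F l * B F l = _
    rw [B_self h3, tt_self hl0]
    simp
  · change (g : Matrix (Fin 2) (Fin 2) F) * B F l = (-1 : F) • (B F l * (g : Matrix (Fin 2) (Fin 2) F))
    rw [ha, Matrix.smul_mul, Matrix.mul_smul, B_comm h3, tt_anti hi hl0 hli, smul_comm]
  · rintro g' ⟨j, t, ht, hb⟩
    have h5 := tt_sq (F := F) j l
    have h6 := tt_sq (F := F) l j
    have h7 : (tt F j l * tt F l j) * (tt F j l * tt F l j) = 1 := by
      calc (tt F j l * tt F l j) * (tt F j l * tt F l j) = (tt F j l * tt F j l) * (tt F l j * tt F l j) := by ring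
        _ = 1 := by rw [h5, h6, one_mul]
    refine ⟨tt F j l * tt F l j, ?_, ?_⟩
    · have h8 : (tt F j l * tt F l j - 1) * (tt F j l * tt F l j + 1) = 0 := by linear_combination h7
      rcases mul_eq_zero.1 h8 with h9 | h9
      · exact Or.inl (by linear_combination h9)
      · exact Or.inr (by linear_combination h9)
    · change (g' : Matrix (Fin 2) (Fin 2) F) * B F l = (tt F j l * tt F l j) • (B F l * (g' : Matrix (Fin 2) (Fin 2) F))
      rw [hb, Matrix.smul_mul, Matrix.mul_smul, B_comm h3, smul_comm]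

end Cfsg.Agent.Lib.AschS.Q8
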