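import Mathlib
import Cfsg.Agent.Lib.AschS.Q8
import Cfsg.Agent.Lib.AschS.Cl6
import Cfsg.Agent.Lib.AschS.Quad

/-!
# Tensor powers of a form
-/

set_option autoImplicit false

namespace Cfsg.Agent.Lib.AschS.Wr

open Matrix Module Cfsg Cfsg.Geo
open Cfsg.Agent.Lib.Asch.Forms Cfsg.Agent.Lib.AschF.Adj Cfsg.Agent.Lib.AschS.Base
open Cfsg.Agent.Lib.Asch.SC Cfsg.Agent.Lib.Asch.XT Cfsg.Agent.Lib.AschF.TenGrp Cfsg.Agent.Lib.AschS.Q8 Cfsg.Agent.Lib.AschS.Cl6 Cfsg.Agent.Lib.AschS.Quad
open Cfsg.Agent.Lib.AschF.WFrame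
open Cfsg.Agent.Lib.Ten.Mm

universe u

section Abstract

variable {G : Type*} [Group G] [Finite G]

/-- A central involution which is a square and commutators with it. -/
theorem char2_false (A : Subgroup G) (hA : A.Characteristic) (hAc : IsMulCommutative A) {c u a : G} (hc : ∀ g, c * g = g * c) (hc2 : c * c = 1)
    (hc1 : c ≠ 1) (hu : u * u = c) (hx : ∀ x, x * u = u * x ∨ x * u = c * (u * x)) (ha : a ∈ A) (hau : a * u = c * (u * a)) : False := by
  classical
  have hne : ∀ z : G, c * z ≠ z := fun z h => hc1 (mul_eq_right.1 h)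
  have hN : ∀ x, x * u ≠ u * x → x * u = c * (u * x) := fun x h => (hx x).resolve_left h
  have hcu : ∀ y, y * u = c * (u * y) → u * y = c * (y * u) := by
    intro y h
    rw [h, ← mul_assoc, hc2, one_mul]
  let φf : G → G := fun x => if x * u = u * x then x else x * u
  have hmul : ∀ x y, φf (x * y) = φf x * φf y := by
    intro x y
    simp only [φf]
    by_cases hpx : x * u = u * x <;> by_cases hpy : y * u = u * y
    · have h1 : x * y * u = u * (x * y) := by
        rw [mul_assoc, hpy, ← mul_assoc, hpx, mul_assoc]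
      rw [if_pos h1, if_pos hpx, if_pos hpy]
    · have hy := hN y hpy
      have h1 : x * y * u ≠ u * (x * y) := by
        intro h
        rw [mul_assoc, hy, ← mul_assoc, ← hc x, mul_assoc, ← mul_assoc x, hpx, mul_assoc, ← mul_assoc u] at h
        exact hne _ h
      rw [if_neg h1, if_pos hpx, if_neg hpy, mul_assoc]
    · have hxx := hN x hpx
      have h1 : x * y * u ≠ u * (x * y) := by
        intro h
        rw [mul_assoc, hpy, ← mul_assoc, hxx, mul_assoc, ← mul_assoc u] at h
        exact hne _ h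
      rw [if_neg h1, if_neg hpx, if_pos hpy, mul_assoc, hpy, mul_assoc]
    · have hxx := hN x hpx
      have hy := hN y hpy
      have h1 : x * y * u = u * (x * y) := by
        calc x * y * u = x * (c * (u * y)) := by rw [mul_assoc, hy]
          _ = c * ((x * u) * y) := by rw [← mul_assoc x c, ← hc x]; simp only [mul_assoc]
          _ = c * (c * (u * x) * y) := by rw [hxx]
          _ = (c * c) * (u * (x * y)) := by simp only [mul_assoc]
          _ = u * (x * y) := by rw [hc2, one_mul]
      rw [if_pos h1, if_neg hpx, if_neg hpy]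
      calc x * y = x * y * (c * c) := by rw [hc2, mul_one]
        _ = x * (y * c) * c := by simp only [mul_assoc]
        _ = x * (c * y) * c := by rw [hc y]
        _ = x * c * (y * c) := by simp only [mul_assoc]
        _ = x * c * (y * (u * u)) := by rw [hu]
        _ = x * (c * (y * u)) * u := by simp only [mul_assoc]
        _ = x * (u * y) * u := by rw [hcu y hy]
        _ = x * u * (y * u) := by simp only [mul_assoc]
  let φ₀ : G →* G := MonoidHom.mk' φf hmul
  have hinj : Function.Injective φ₀ := by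
    intro x y hxy
    change φf x = φf y at hxy
    simp only [φf] at hxy
    have hcross : ∀ p q : G, p * u = u * p → ¬ q * u = u * q → p = q * u → False := by
      intro p q hp hq h
      have hq' := hN q hq
      subst h
      have h1 : q * u * u = q * c := by rw [mul_assoc, hu]
      have h2 : u * (q * u) = q := by
        rw [← mul_assoc, hcu q hq', mul_assoc, mul_assoc, hu, ← mul_assoc, hc q, mul_assoc, hc2, mul_one]
      rw [h1, h2] at hp
      exact hc1 (mul_eq_left.1 hp)
    by_cases hpx : x * u = u * x <;> by_cases hpy : y * u = u * y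
    · rwa [if_pos hpx, if_pos hpy] at hxy
    · rw [if_pos hpx, if_neg hpy] at hxy
      exact (hcross x y hpx hpy hxy).elim
    · rw [if_neg hpx, if_pos hpy] at hxy
      exact (hcross y x hpy hpx hxy.symm).elim
    · rw [if_neg hpx, if_neg hpy] at hxy
      exact mul_right_cancel hxy
  let φ : G ≃* G := MulEquiv.ofBijective φ₀ ⟨hinj, Finite.injective_iff_surjective.1 hinj⟩
  have h1 := hA.fixed φ
  have h2 : φ a ∈ A := by
    have : a ∈ A.comap φ.toMonoidHom := by
      rw [h1]
      exact ha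
    exact this
  have hpa : ¬ a * u = u * a := by
    intro h
    rw [hau] at h
    exact hne _ h
  have h3 : φ a = a * u := by
    change φf a = _
    simp only [φf]
    rw [if_neg hpa]
  rw [h3] at h2
  have h4 : u ∈ A := by
    have := A.mul_mem (A.inv_mem ha) h2
    simpa using this
  apply hpa
  have := hAc.is_comm.comm (⟨a, ha⟩ : A) ⟨u, h4⟩
  exact congrArg Subtype.val this

end Abstract

variable {F : Type u} [Field F]

section TenLevel

variable {k : ℕ}

theorem tw_slot (j : Fin k) (gs : Fin k → GL (Fin 2) F) (b : GL (Fin 2) F) (d : F)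
    (hd : (gs j : Matrix (Fin 2) (Fin 2) F) * (b : Matrix (Fin 2) (Fin 2) F) = d • ((b : Matrix (Fin 2) (Fin 2) F) * (gs j : Matrix (Fin 2) (Fin 2) F))) :
    ((tw gs 1 : GL (Fin k → Fin 2) F) : Matrix (Fin k → Fin 2) (Fin k → Fin 2) F) * ((tw (Function.update (fun _ => 1) j b) 1 : GL (Fin k → Fin 2) F) : Matrix (Fin k → Fin 2) (Fin k → Fin 2) F) =
      d • (((tw (Function.update (fun _ => 1) j b) 1 : GL (Fin k → Fin 2) F) : Matrix (Fin k → Fin 2) (Fin k → Fin 2) F) * ((tw gs 1 : GL (Fin k → Fin 2) F) : Matrix (Fin k → Fin 2) (Fin k → Fin 2) F)) := by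
  classical
  rw [coe_tw, coe_tw, mm_mul, mm_mul]
  have h2 := mm_smul_slots (fun i => if i = j then d else 1)
    (fun i => ((Function.update (fun _ => (1 : GL (Fin 2) F)) j b) i : Matrix (Fin 2) (Fin 2) F) * (gs i : Matrix (Fin 2) (Fin 2) F))
  rw [Finset.prod_ite_eq' Finset.univ j (fun _ => d), if_pos (Finset.mem_univ j)] at h2
  have h3 : (fun i => (gs i : Matrix (Fin 2) (Fin 2) F) * ((Function.update (fun _ => (1 : GL (Fin 2) F)) j b) ((1 : Equiv.Perm (Fin k)) i) : Matrix (Fin 2) (Fin 2) F)) =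
      fun i => (if i = j then d else 1) • (((Function.update (fun _ => (1 : GL (Fin 2) F)) j b) i : Matrix (Fin 2) (Fin 2) F) * (gs i : Matrix (Fin 2) (Fin 2) F)) := by
    funext i
    simp only [Equiv.Perm.one_apply]
    by_cases hij : i = j
    · subst hij
      rw [if_pos rfl, Function.update_self]
      exact hd
    · rw [if_neg hij, one_smul, Function.update_of_ne hij]
      simp
  exact (congrArg (fun As => mm As (Equiv.trans (1 : Equiv.Perm (Fin k)) 1)) h3).trans h2

/-- Elements of the tensor power of the quaternion group. -/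
theorem T_elt (h3 : (3 : F) = 0) {t : GL (Fin k → Fin 2) F} (ht : t ∈ tenGrp (Q8G h3) k) (htZ : t ∉ scalars (Fin k → Fin 2) F) :
    ∃ u ∈ tenGrp (Q8G h3) k, u * u = sc (-1) ∧ (∀ x ∈ tenGrp (Q8G h3) k, x * u = u * x ∨ x * u = sc (-1) * (u * x)) ∧ t * u = sc (-1) * (u * t) := by
  classical
  obtain ⟨gs, hgs, rfl⟩ := ht
  obtain ⟨j, hj⟩ : ∃ j, gs j ∉ scalars (Fin 2) F := by
    by_contra hcon
    push Not at hcon
    apply htZ
    have h1 : ∀ i, ∃ c : Fˣ, sc c = gs i := fun i => hcon i
    choose c hc using h1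
    refine ⟨∏ i, c i, ?_⟩
    apply Units.ext
    change ((sc (∏ i, c i) : GL (Fin k → Fin 2) F) : Matrix (Fin k → Fin 2) (Fin k → Fin 2) F) = _
    rw [coe_tw, sc_val]
    have h2 := mm_smul_slots (a := 2) (fun i => (c i : F)) (fun _ => (1 : Matrix (Fin 2) (Fin 2) F))
    have h4 : (fun i => (gs i : Matrix (Fin 2) (Fin 2) F)) = fun i => (c i : F) • (1 : Matrix (Fin 2) (Fin 2) F) := by
      funext i
      rw [← hc, sc_val]
    rw [h4, h2, mm_one, Units.coe_prod]
  obtain ⟨b, hb, hbb, hanti, hall⟩ := Q8_slot h3 (hgs j) hj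
  have hupd : ∀ i, Function.update (fun _ : Fin k => (1 : GL (Fin 2) F)) j b i ∈ Q8G h3 := by
    intro i
    by_cases hij : i = j
    · subst hij
      rw [Function.update_self]
      exact hb
    · rw [Function.update_of_ne hij]
      exact (Q8G h3).one_mem
  have hsc : ((sc (-1) : GL (Fin k → Fin 2) F) : Matrix (Fin k → Fin 2) (Fin k → Fin 2) F) = (-1 : F) • 1 := by
    rw [sc_val]
    simp
  refine ⟨_, tw_mem hupd, ?_, ?_, ?_⟩
  · apply Units.ext
    rw [Units.val_mul, coe_tw, mm_mul, hsc]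
    have h2 := mm_smul_slots (a := 2) (fun i => if i = j then (-1 : F) else 1) (fun _ => (1 : Matrix (Fin 2) (Fin 2) F))
    rw [Finset.prod_ite_eq' Finset.univ j (fun _ => (-1 : F)), if_pos (Finset.mem_univ j), mm_one] at h2
    have h4 : (fun i => ((Function.update (fun _ => (1 : GL (Fin 2) F)) j b) i : Matrix (Fin 2) (Fin 2) F) * ((Function.update (fun _ => (1 : GL (Fin 2) F)) j b) ((1 : Equiv.Perm (Fin k)) i) : Matrix (Fin 2) (Fin 2) F)) =
        fun i => (if i = j then (-1 : F) else 1) • (1 : Matrix (Fin 2) (Fin 2) F) := by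
      funext i
      simp only [Equiv.Perm.one_apply]
      by_cases hij : i = j
      · subst hij
        rw [if_pos rfl, Function.update_self, ← Units.val_mul, hbb, sc_val]
        simp
      · rw [if_neg hij, one_smul, Function.update_of_ne hij]
        simp
    exact (congrArg (fun As => mm As (Equiv.trans (1 : Equiv.Perm (Fin k)) 1)) h4).trans h2
  · rintro _ ⟨gs', hgs', rfl⟩
    obtain ⟨d, hd, h4⟩ := hall _ (hgs' j)
    have h5 := tw_slot j gs' b d h4
    rcases hd with rfl | rfl
    · left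
      apply Units.ext
      rw [Units.val_mul, Units.val_mul, h5, one_smul]
    · right
      apply Units.ext
      rw [Units.val_mul, Units.val_mul, Units.val_mul, h5, hsc, Matrix.smul_mul, one_mul]
  · apply Units.ext
    rw [Units.val_mul, Units.val_mul, Units.val_mul, tw_slot j gs b (-1) hanti, hsc, Matrix.smul_mul, one_mul]

/-- Squares of the tensor power. -/
theorem T_sq (h3 : (3 : F) = 0) {t : GL (Fin k → Fin 2) F} (ht : t ∈ tenGrp (Q8G h3) k) : ∃ m : Fˣ, m ^ 2 = 1 ∧ t ^ 2 = sc m := by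
  classical
  obtain ⟨gs, hgs, rfl⟩ := ht
  have h1 := fun i => Q8_sq h3 (hgs i)
  choose m hm hgm using h1
  refine ⟨∏ i, m i, ?_, ?_⟩
  · rw [← Finset.prod_pow]
    exact Finset.prod_eq_one fun i _ => hm i
  · rw [tw_pow]
    apply Units.ext
    rw [coe_tw, sc_val]
    have h2 := mm_smul_slots (a := 2) (fun i => (m i : F)) (fun _ => (1 : Matrix (Fin 2) (Fin 2) F))
    have h4 : (fun i => ((gs i ^ 2 : GL (Fin 2) F) : Matrix (Fin 2) (Fin 2) F)) = fun i => (m i : F) • (1 : Matrix (Fin 2) (Fin 2) F) := by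
      funext i
      rw [hgm, sc_val]
    rw [h4, h2, mm_one, Units.coe_prod]

end TenLevel

variable {ι : Type} [Fintype ι] [DecidableEq ι] [Fintype F] {f : (ι → F) → (ι → F) → F} {H : Subgroup (GL ι F)}

/-- The exceptional tensor power: the central product of quaternion groups. -/
theorem q8_false [Nonempty ι] (hf : HF (RingEquiv.refl F) (-1) f) (halt : ∀ v, f v v = 0)
    (hfix : ∀ g ∈ H, ∀ u v, f ((g : Matrix ι ι F) *ᵥ u) ((g : Matrix ι ι F) *ᵥ v) = f u v) (hNo : SNoClass f H)
    (hF3 : Fintype.card F = 3) {k : ℕ} (hk : 2 ≤ k) (e₂ : ι ≃ (Fin k → Fin 2)) (P₂ : GL ι F) {A : (Fin 2 → F) → (Fin 2 → F) → F} {c : F}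
    (hA : HF (RingEquiv.refl F) (-1) A) (hc : c ≠ 0)
    (hlaw : ∀ x y : (Fin k → Fin 2) → F, f ((P₂ : Matrix ι ι F) *ᵥ (x ∘ e₂)) ((P₂ : Matrix ι ι F) *ᵥ (y ∘ e₂)) =
      c * ∑ u, ∑ v, x u * (∏ i, gramMatrix A (u i) (v i)) * (RingEquiv.refl F) (y v))
    (hle : H ≤ tensorWreathSubgroup 2 k e₂ P₂) : False := by
  classical
  have h3 : (3 : F) = 0 := by
    have := Nat.cast_card_eq_zero F
    rw [hF3] at this
    exact_mod_cast this
  have h2 : (2 : F) ≠ 0 := by
    intro h
    apply one_ne_zero (α := F)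
    linear_combination h3 - h
  have hFt : ∀ x : F, x = 0 ∨ x = 1 ∨ x = -1 := by
    intro x
    have h1 : x ^ 3 = x := by
      have := FiniteField.pow_card x
      rwa [hF3] at this
    have h4 : x * ((x - 1) * (x + 1)) = 0 := by linear_combination h1
    rcases mul_eq_zero.1 h4 with h5 | h5
    · exact Or.inl h5
    · rcases mul_eq_zero.1 h5 with h6 | h6
      · exact Or.inr (Or.inl (by linear_combination h6))
      · exact Or.inr (Or.inr (by linear_combination h6))
  have haltA : ∀ x, A x x = 0 := by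
    intro v
    have h4 := hA.herm v v
    rw [RingEquiv.refl_apply] at h4
    have h5 : 2 * A v v = 0 := by linear_combination h4
    exact (mul_eq_zero.1 h5).resolve_left h2
  obtain ⟨P₃, hlaw₃, hact⟩ := wr_frame e₂ P₂ hA hA hc hlaw 1 (by simp) (by norm_num)
  set T := tenGrp (Q8G h3) k with hT
  set R := cjGrp T e₂ P₃ with hR
  have hRiso : ∀ x ∈ R, ∀ u v, f ((x : Matrix ι ι F) *ᵥ u) ((x : Matrix ι ι F) *ᵥ v) = f u v := fun x hx u v =>
    cj_isom hf.sesq e₂ P₃ hlaw₃ (fun g hg x y => alt_det hA.sesq haltA g (Q8_det hg) x y) hx u v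
  have hAbs : ActsAbsolutelyIrreducibly (matrixSet R) := absIrr_of_span (cj_span (span_tenGrp (Q8_span h3 h2)))
  have hSC : ScC R := cj_scC (scC (Q8_ScC h3))
  have hcard2 : 2 ≤ Fintype.card ι := by
    rw [Fintype.card_congr e₂, Fintype.card_fun, Fintype.card_fin, Fintype.card_fin]
    calc 2 = 2 ^ 1 := by norm_num
      _ ≤ 2 ^ k := Nat.pow_le_pow_right (by norm_num) (by omega)
  -- conjugation
  let cj : GL (Fin k → Fin 2) F →* GL ι F := (MulAut.conj P₃).toMonoidHom.comp (glReindex e₂.symm).toMonoidHom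
  have hcj : ∀ g, cj g = P₃ * glReindex e₂.symm g * P₃⁻¹ := fun g => rfl
  have hcjsc : ∀ m : Fˣ, cj (sc m) = sc m := by
    intro m
    have h4 : glReindex e₂.symm (sc m : GL (Fin k → Fin 2) F) = sc m := by
      apply Units.ext
      rw [Cfsg.Agent.Lib.Asch.Cl.glReindex_val, sc_val, sc_val]
      ext i j
      simp [Matrix.one_apply]
    rw [hcj, h4, ← sc_comm m P₃]
    simp
  have hmemR : ∀ x, x ∈ R ↔ ∃ g ∈ T, x = cj g := fun x => mem_cjGrp
  have hsq : ∀ x ∈ R, ∃ m : Fˣ, m ^ 2 = 1 ∧ x ^ 2 = sc m := by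
    intro x hx
    obtain ⟨t, ht, rfl⟩ := (hmemR x).1 hx
    obtain ⟨m, hm, htm⟩ := T_sq h3 ht
    exact ⟨m, hm, by rw [← map_pow, htm, hcjsc]⟩
  have hN : H ≤ subgroupNormalizer R := by
    apply le_normalizer
    intro h hh x hx
    obtain ⟨gs, τ, hgs, -⟩ := hact h (hfix h hh) (hle hh)
    exact cj_HN (tw gs τ) hgs (fun g hg => tw_conj_mem gs τ (fun i x hx => Q8_normal h3 hFt (gs i) hx) hg) hx
  refine Cfsg.Agent.Lib.AschS.Cl6.cl6_core hf halt hNo hF3 Nat.prime_three (by decide) hRiso hAbs hSC hcard2 hsq hN ?_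
  -- characteristic abelian subgroups
  intro A' hA' hAc
  have hle' : ∀ a ∈ A', ((a : R) : GL ι F) ∈ scalars ι F := by
    intro a ha
    by_contra hnot
    obtain ⟨t, ht, hat⟩ := (hmemR _).1 a.2
    have htZ : t ∉ scalars (Fin k → Fin 2) F := by
      rintro ⟨m, rfl⟩
      apply hnot
      rw [hat]
      change cj (sc m) ∈ _
      rw [hcjsc]
      exact sc_mem m
    obtain ⟨u, hu, huu, hall, htu⟩ := T_elt h3 ht htZ
    have hsc1 : (sc (-1) : GL ι F) ≠ 1 := by
      intro h
      have h5 : (-1 : Fˣ) = 1 := sc_inj (ι := ι) (by rw [h, map_one])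
      have h6 := congrArg Units.val h5
      apply h2
      simp only [Units.val_neg, Units.val_one] at h6
      linear_combination -h6
    have hmT : (sc (-1) : GL (Fin k → Fin 2) F) ∈ T := by
      rw [← huu]
      exact T.mul_mem hu hu
    have hcR : (sc (-1) : GL ι F) ∈ R := (hmemR _).2 ⟨_, hmT, (hcjsc _).symm⟩
    have huR : cj u ∈ R := (hmemR _).2 ⟨u, hu, rfl⟩
    refine char2_false A' hA' hAc (c := ⟨sc (-1), hcR⟩) (u := ⟨cj u, huR⟩) (a := a) ?_ ?_ ?_ ?_ ?_ ha ?_
    · intro g
      exact Subtype.ext (sc_comm _ _)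
    · apply Subtype.ext
      change (sc (-1) : GL ι F) * sc (-1) = 1
      rw [← map_mul]
      simp
    · intro h
      exact hsc1 (congrArg Subtype.val h)
    · apply Subtype.ext
      change cj u * cj u = sc (-1)
      rw [← map_mul, huu, hcjsc]
    · intro x
      obtain ⟨t', ht', hxt⟩ := (hmemR _).1 x.2
      rcases hall t' ht' with h5 | h5
      · left
        apply Subtype.ext
        change (x : GL ι F) * cj u = cj u * (x : GL ι F)
        rw [hxt, ← map_mul, ← map_mul, h5]
      · right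
        apply Subtype.ext
        change (x : GL ι F) * cj u = sc (-1) * (cj u * (x : GL ι F))
        rw [hxt, ← map_mul, ← map_mul, h5, map_mul, hcjsc, map_mul]
    · apply Subtype.ext
      change ((a : R) : GL ι F) * cj u = sc (-1) * (cj u * ((a : R) : GL ι F))
      rw [hat, ← map_mul, ← map_mul, htu, map_mul, hcjsc, map_mul]
  exact cyclic_of_scalars (R.subtype.comp A'.subtype) (Subtype.val_injective.comp Subtype.val_injective) fun t => hle' t t.2

section Even

variable {a k : ℕ}

theorem ten_upd (us : Fin k → Fin a → F) (j : Fin k) (x : Fin a → F) (b : Fin k → Fin a) :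
    ten (Function.update us j x) b = x (b j) * ∏ i ∈ Finset.univ.erase j, us i (b i) := by
  classical
  rw [ten_apply, ← Finset.mul_prod_erase Finset.univ _ (Finset.mem_univ j), Function.update_self]
  congr 1
  refine Finset.prod_congr rfl fun i hi => ?_
  rw [Function.update_of_ne (Finset.ne_of_mem_erase hi)]

/-- Even characteristic: the quadratic form of a tensor power. -/
theorem even_wr_false (hf : HF (RingEquiv.refl F) (-1) f) (halt : ∀ v, f v v = 0)
    (hfix : ∀ g ∈ H, ∀ u v, f ((g : Matrix ι ι F) *ᵥ u) ((g : Matrix ι ι F) *ᵥ v) = f u v) (hNo : SNoClass f H) (h2 : (2 : F) = 0)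
    (ha : 2 ≤ a) (hk : 2 ≤ k) (e₂ : ι ≃ (Fin k → Fin a)) (P₂ : GL ι F) {A : (Fin a → F) → (Fin a → F) → F} {c : F}
    (hA : HF (RingEquiv.refl F) 1 A) (hc : c ≠ 0)
    (hlaw : ∀ x y : (Fin k → Fin a) → F, f ((P₂ : Matrix ι ι F) *ᵥ (x ∘ e₂)) ((P₂ : Matrix ι ι F) *ᵥ (y ∘ e₂)) =
      c * ∑ u, ∑ v, x u * (∏ i, gramMatrix A (u i) (v i)) * (RingEquiv.refl F) (y v))
    (hle : H ≤ tensorWreathSubgroup a k e₂ P₂) : False := by
  classical
  obtain ⟨P₃, hlaw₃, hact⟩ := wr_frame e₂ P₂ hA hA hc hlaw 1 (by simp) (by omega)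
  have haltA : ∀ x, A x x = 0 := by
    intro x
    have h1 := hlaw₃ (fun _ => x) (fun _ => x)
    rw [halt, Finset.prod_const] at h1
    have h3 := (mul_eq_zero.1 h1.symm).resolve_left hc
    exact pow_eq_zero_iff (n := _) (by
      rw [Finset.card_univ, Fintype.card_fin]
      omega) |>.1 h3
  obtain ⟨Q, hsm, hpol, h0⟩ := exists_Q_transport h2 hf.sesq halt e₂ P₃
  have hQ : ∀ (S : Finset (Fin k)) (us : Fin k → Fin a → F), (∀ i, i ∉ S → ∃ b, us i = Pi.single b 1) →
      Q ((P₃ : Matrix ι ι F) *ᵥ (ten us ∘ e₂)) = 0 := by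
    intro S
    induction S using Finset.induction_on with
    | empty =>
      intro us hus
      have h1 := fun i => hus i (Finset.notMem_empty i)
      choose b hb using h1
      have h3 : us = fun i => Pi.single (b i) 1 := funext hb
      rw [h3, ten_single]
      exact h0 b
    | insert j S hj ih =>
      intro us hus
      have hadd : ∀ x y : Fin a → F, (P₃ : Matrix ι ι F) *ᵥ (ten (Function.update us j (x + y)) ∘ e₂) =
          (P₃ : Matrix ι ι F) *ᵥ (ten (Function.update us j x) ∘ e₂) + (P₃ : Matrix ι ι F) *ᵥ (ten (Function.update us j y) ∘ e₂) := by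
        intro x y
        rw [← Matrix.mulVec_add]
        congr 1
        funext i
        simp only [Function.comp_apply, Pi.add_apply, ten_upd, add_mul]
      have hsmul : ∀ (d : F) (x : Fin a → F), (P₃ : Matrix ι ι F) *ᵥ (ten (Function.update us j (d • x)) ∘ e₂) =
          d • (P₃ : Matrix ι ι F) *ᵥ (ten (Function.update us j x) ∘ e₂) := by
        intro d x
        rw [← Matrix.mulVec_smul]
        congr 1
        funext i
        simp only [Function.comp_apply, Pi.smul_apply, ten_upd, smul_eq_mul, mul_assoc]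
      obtain ⟨j', hj'⟩ : ∃ j' : Fin k, j' ≠ j := by
        by_contra hcon
        push Not at hcon
        have h3 : Fintype.card (Fin k) ≤ 1 := Fintype.card_le_one_iff.2 fun x y => by rw [hcon x, hcon y]
        rw [Fintype.card_fin] at h3
        omega
      have hall := add_hom_zero (fun x : Fin a → F => Q ((P₃ : Matrix ι ι F) *ᵥ (ten (Function.update us j x) ∘ e₂)))
        (fun x y => by
          rw [hadd, hpol, hlaw₃, Finset.prod_eq_zero (Finset.mem_univ j'), mul_zero, add_zero]
          rw [Function.update_of_ne hj', Function.update_of_ne hj']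
          exact haltA _)
        (fun d x => by
          rw [hsmul, hsm])
        (fun b => by
          refine ih _ fun i hi => ?_
          by_cases hij : i = j
          · subst hij
            exact ⟨b, Function.update_self _ _ _⟩
          · rw [Function.update_of_ne hij]
            exact hus i (by
              simp only [Finset.mem_insert, not_or]
              exact ⟨hij, hi⟩))
      have := hall (us j)
      simpa using this
  have hQ0 : ∀ us : Fin k → Fin a → F, Q ((P₃ : Matrix ι ι F) *ᵥ (ten us ∘ e₂)) = 0 :=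
    fun us => hQ Finset.univ us fun i hi => absurd (Finset.mem_univ i) hi
  refine quad_false hf hNo h2 hsm hpol fun h hh v => ?_
  obtain ⟨gs, τ, hgs, -⟩ := hact h (hfix h hh) (hle hh)
  refine Q_fixed hsm hpol (S := {w | ∃ us : Fin k → Fin a → F, w = (P₃ : Matrix ι ι F) *ᵥ (ten us ∘ e₂)}) (fun w => ?_) h (hfix h hh) ?_ v
  · -- spanning
    let z : (Fin k → Fin a) → F := (((P₃⁻¹ : GL ι F) : Matrix ι ι F) *ᵥ w) ∘ e₂.symm
    have hw : w = ∑ b, z b • ((P₃ : Matrix ι ι F) *ᵥ (ten (fun i => (Pi.single (b i) 1 : Fin a → F)) ∘ e₂)) := by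
      have h3 : w = (P₃ : Matrix ι ι F) *ᵥ (z ∘ e₂) := by
        have : z ∘ e₂ = ((P₃⁻¹ : GL ι F) : Matrix ι ι F) *ᵥ w := by
          funext i
          simp [z]
        rw [this, Cfsg.Agent.Lib.Geo.Basic.mulVec_inv_mulVec]
      have h5 : z ∘ e₂ = ∑ b, z b • ((Pi.single b (1 : F) : (Fin k → Fin a) → F) ∘ e₂) := by
        funext i
        simp only [Function.comp_apply, Finset.sum_apply, Pi.smul_apply, smul_eq_mul, Pi.single_apply]
        rw [Finset.sum_eq_single (e₂ i)]
        · simp
        · intro b _ hb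
          simp [Ne.symm hb]
        · simp
      conv_lhs => rw [h3, h5]
      rw [Matrix.mulVec_sum]
      refine Finset.sum_congr rfl fun b _ => ?_
      rw [Matrix.mulVec_smul, ten_single]
    rw [hw]
    exact Submodule.sum_mem _ fun b _ => Submodule.smul_mem _ _ (Submodule.subset_span ⟨_, rfl⟩)
  · rintro _ ⟨us, rfl⟩
    rw [act_ten e₂ P₃ h gs τ hgs, hQ0, hQ0]

end Even

/-- Tensor powers are excluded. -/
theorem wr_false [Nonempty ι] (hf : HF (RingEquiv.refl F) (-1) f) (halt : ∀ v, f v v = 0)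
    (hfix : ∀ g ∈ H, ∀ u v, f ((g : Matrix ι ι F) *ᵥ u) ((g : Matrix ι ι F) *ᵥ v) = f u v) (hNo : SNoClass f H)
    (a k : ℕ) (e₂ : ι ≃ (Fin k → Fin a)) (P₂ : GL ι F) (A : (Fin a → F) → (Fin a → F) → F) (ε₁ c : F)
    (ha : 2 ≤ a) (hk : 2 ≤ k) (hA : HF (RingEquiv.refl F) ε₁ A) (hc : c ≠ 0)
    (hlaw : ∀ x y : (Fin k → Fin a) → F, f ((P₂ : Matrix ι ι F) *ᵥ (x ∘ e₂)) ((P₂ : Matrix ι ι F) *ᵥ (y ∘ e₂)) =
      c * ∑ u, ∑ v, x u * (∏ i, gramMatrix A (u i) (v i)) * (RingEquiv.refl F) (y v))
    (hε : c * ε₁ ^ k = -1 * (RingEquiv.refl F) c) (hle : H ≤ tensorWreathSubgroup a k e₂ P₂) : False := by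
  classical
  have hsq : ε₁ * ε₁ = 1 := by
    have he : (Pi.single ⟨0, by omega⟩ 1 : Fin a → F) ≠ 0 := by
      intro h0
      have := congrFun h0 ⟨0, by omega⟩
      simp at this
    obtain ⟨⟨z, hz⟩, -⟩ := hA.nd _ he
    have h3 := hA.herm z (Pi.single ⟨0, by omega⟩ 1)
    have h4 := hA.herm (Pi.single ⟨0, by omega⟩ 1) z
    rw [RingEquiv.refl_apply] at h3 h4
    rw [h3] at h4
    have h5 : (ε₁ * ε₁ - 1) * A z (Pi.single ⟨0, by omega⟩ 1) = 0 := by linear_combination -h4
    have h6 := (mul_eq_zero.1 h5).resolve_right hz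
    linear_combination h6
  have hk' : ε₁ ^ k = -1 := by
    rw [RingEquiv.refl_apply] at hε
    have h3 : c * (ε₁ ^ k + 1) = 0 := by linear_combination hε
    have h4 := (mul_eq_zero.1 h3).resolve_left hc
    linear_combination h4
  by_cases h2 : (2 : F) = 0
  · have hε₁ : ε₁ = 1 := by
      have h3 : (ε₁ - 1) * (ε₁ - 1) = 0 := by linear_combination hsq + (1 - ε₁) * h2
      have := mul_self_eq_zero.1 h3
      linear_combination this
    subst hε₁
    exact even_wr_false hf halt hfix hNo h2 ha hk e₂ P₂ hA hc hlaw hle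
  · have h3 : (ε₁ - 1) * (ε₁ + 1) = 0 := by linear_combination hsq
    have hne : (1 : F) ≠ -1 := by
      intro h
      apply h2
      linear_combination h
    rcases mul_eq_zero.1 h3 with h4 | h4
    · exfalso
      have hε₁ : ε₁ = 1 := by linear_combination h4
      rw [hε₁, one_pow] at hk'
      exact hne hk'
    · have hε₁ : ε₁ = -1 := by linear_combination h4
      subst hε₁
      have hodd : Odd k := by
        by_contra hcon
        rw [Nat.not_odd_iff_even] at hcon
        rw [hcon.neg_one_pow] at hk'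
        exact hne hk'
      have hk3 : 3 ≤ k := by
        obtain ⟨m, rfl⟩ := hodd
        omega
      by_cases hex : Fintype.card F = 3 ∧ a = 2
      · obtain ⟨hF3, rfl⟩ := hex
        exact q8_false hf halt hfix hNo hF3 hk e₂ P₂ hA hc hlaw hle
      · refine hNo.wr a k e₂ P₂ A (odd_of_two_ne h2) hodd hk3 hex
          ⟨⟨hA.sesq.add_left, hA.sesq.smul_left, hA.sesq.add_right, hA.sesq.smul_right⟩, ?_, ?_, hA.nd⟩ ⟨c, hc, fun x y => hlaw x y⟩ hle
        · intro v w
          rw [hA.herm w v, RingEquiv.refl_apply]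
          ring
        · intro v
          have h5 := hA.herm v v
          rw [RingEquiv.refl_apply] at h5
          have h6 : 2 * A v v = 0 := by linear_combination h5
          exact (mul_eq_zero.1 h6).resolve_left h2

end Cfsg.Agent.Lib.AschS.Wr
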