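import Mathlib
import Cfsg.Agent.Lib.AschS.Wr
import Cfsg.Agent.Lib.AschS.Ten
import Cfsg.Agent.Lib.AschS.Desc
import Cfsg.Agent.Lib.AschF.OddE
import Cfsg.Agent.Lib.AschU.Main

/-!
# Subgroups of the symplectic group in no geometric class
-/

set_option autoImplicit false

namespace Cfsg.Agent.Lib.AschS.Main

open Matrix Module Cfsg Cfsg.Geo
open Cfsg.Agent.Lib.Asch.Forms Cfsg.Agent.Lib.Asch.SC Cfsg.Agent.Lib.AschF.Adj
open Cfsg.Agent.Lib.AschS.Base Cfsg.Agent.Lib.AschS.Quad Cfsg.Agent.Lib.AschS.Pair Cfsg.Agent.Lib.AschS.Fld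
open Cfsg.Agent.Lib.AschS.Ten Cfsg.Agent.Lib.AschS.Wr Cfsg.Agent.Lib.AschS.Desc Cfsg.Agent.Lib.AschS.Cl6
open Cfsg.Agent.Lib.AschF.Dich Cfsg.Agent.Lib.AschF.Top Cfsg.Agent.Lib.AschF.Sub
open Cfsg.Agent.Lib.Asch.XT Cfsg.Agent.Lib.Asch.GT Cfsg.Agent.Lib.Asch.FieldSub

universe u

variable {ι : Type} [Fintype ι] [DecidableEq ι] {F : Type u} [Field F] [Fintype F]
  {f : (ι → F) → (ι → F) → F} {H : Subgroup (GL ι F)}

/-- The data for the dichotomy. -/
theorem noStr [Nonempty ι] (hf : HF (RingEquiv.refl F) (-1) f) (halt : ∀ v, f v v = 0)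
    (hfix : ∀ g ∈ H, ∀ u v, f ((g : Matrix ι ι F) *ᵥ u) ((g : Matrix ι ι F) *ᵥ v) = f u v) (hNo : SNoClass f H) :
    NoStr f (RingEquiv.refl F) (-1) H where
  irr := irr_of_noclass hf hfix hNo
  dec := fun t k D hD hle _ => hNo.dec t k D hD hle
  pair := fun _ _ hD hts hle => pair_false hf hfix hNo hD hts hle
  fld := fun _ _ hr hK hadj hle => fld_false hf halt hfix hNo hr hK hadj hle
  ten := fun _ _ e P _ _ _ _ ha hb h₁ h₂ hε hlaw hmem => ten_false hf halt hfix hNo e P ha hb h₁ h₂ hε hlaw hmem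

/-- Normal absolutely irreducible subgroups are not realisable over subfields. -/
theorem hSf_of [Nonempty ι] (hf : HF (RingEquiv.refl F) (-1) f)
    (hfix : ∀ g ∈ H, ∀ u v, f ((g : Matrix ι ι F) *ᵥ u) ((g : Matrix ι ι F) *ᵥ v) = f u v) (hNo : SNoClass f H) :
    ∀ P₀ : Subgroup (GL ι F), P₀ ≤ H → HN H P₀ → ActsAbsolutelyIrreducibly (matrixSet P₀) →
      ∀ F₀ : Subfield F, F₀ ≠ ⊤ → ¬ RealisableOver F₀ (matrixSet P₀) := by
  intro P₀ hP₀ hN hA F₀ hF₀ hR
  obtain ⟨B, F₁, p, s, k, hp, hc, -, hs, hcardF, hF₁, hHB, hB⟩ := subfield_mem H P₀ hA hN F₀ hF₀ hR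
  haveI : Fact p.Prime := ⟨hp⟩
  have hfix₀ : FixesForm (matrixSet P₀) f := by
    rintro _ ⟨x, hx, rfl⟩ u v
    exact hfix x (hP₀ hx) u v
  obtain ⟨ζ, hζ, hR'⟩ := rational_zeta hf.sesq hf.nd hA hfix₀ B F₁ p k hF₁ hB
  exact hNo.sub F₁ s B⁻¹ ζ hs hcardF hζ hR' hHB

/-- Characteristic abelian subgroups are cyclic. -/
theorem cyc_of_char [Nonempty ι] (hf : HF (RingEquiv.refl F) (-1) f) (halt : ∀ v, f v v = 0)
    (hfix : ∀ g ∈ H, ∀ u v, f ((g : Matrix ι ι F) *ᵥ u) ((g : Matrix ι ι F) *ᵥ v) = f u v) (hNo : SNoClass f H)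
    {R : Subgroup (GL ι F)} (hRH : R ≤ H) (hR : HN H R) (A : Subgroup R) (hA : A.Characteristic) (hAc : IsMulCommutative A) : IsCyclic A := by
  set A' : Subgroup (GL ι F) := A.map R.subtype with hA'
  have hAHN : HN H A' := by
    rintro h hh _ ⟨a, ha, rfl⟩
    let φ : R ≃* R :=
      { toFun := fun x => ⟨h * x * h⁻¹, hR h hh x x.2⟩
        invFun := fun x => ⟨h⁻¹ * x * h, by simpa using hR h⁻¹ (H.inv_mem hh) x x.2⟩
        left_inv := fun x => by
          apply Subtype.ext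
          simp [mul_assoc]
        right_inv := fun x => by
          apply Subtype.ext
          simp [mul_assoc]
        map_mul' := fun x y => by
          apply Subtype.ext
          simp [mul_assoc] }
    have h1 := hA.fixed φ
    have h2 : φ a ∈ A := by
      have : a ∈ A.comap φ.toMonoidHom := by
        rw [h1]
        exact ha
      exact this
    exact ⟨φ a, h2, rfl⟩
  have hle : A' ≤ scalars ι F := by
    rcases normal_dichotomy_form hf H hfix (noStr hf halt hfix hNo) A' (by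
      rintro _ ⟨a, -, rfl⟩
      exact hRH a.2) hAHN with h | h
    · exact h
    · intro x hx
      apply mem_scalars_of_comm h
      rintro y ⟨b, hb, rfl⟩
      obtain ⟨a, ha, rfl⟩ := hx
      have := hAc.is_comm.comm (⟨a, ha⟩ : A) ⟨b, hb⟩
      exact congrArg (fun t : A => (t : R).1) this
  exact cyclic_of_scalars (R.subtype.comp A.subtype)
    (Subtype.val_injective.comp Subtype.val_injective) fun t => hle ⟨t, t.2, rfl⟩

/-- The prime two alternative. -/
theorem two_case [Nonempty ι] (hcard : 2 ≤ Fintype.card ι) (hf : HF (RingEquiv.refl F) (-1) f) (halt : ∀ v, f v v = 0)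
    (hfix : ∀ g ∈ H, ∀ u v, f ((g : Matrix ι ι F) *ᵥ u) ((g : Matrix ι ι F) *ᵥ v) = f u v) (hNo : SNoClass f H)
    {R : Subgroup (GL ι F)} (hRH : R ≤ H) (hRN : HN H R) (hA : ActsAbsolutelyIrreducibly (matrixSet R)) (hSC : ScC R)
    (h2' : ∀ x ∈ R, ∃ m : Fˣ, m ^ 2 = 1 ∧ x ^ 2 = sc m) : False := by
  classical
  have hRiso : ∀ x ∈ R, ∀ u v, f ((x : Matrix ι ι F) *ᵥ u) ((x : Matrix ι ι F) *ᵥ v) = f u v :=
    fun x hx => hfix x (hRH hx)
  obtain ⟨h2, hm, hZ, -⟩ := sc_data hf hRiso hA hSC hcard h2'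
  obtain ⟨p, hpc⟩ := CharP.exists F
  obtain ⟨E, hpp, hE⟩ := FiniteField.card F p
  haveI : Fact p.Prime := ⟨hpp⟩
  have hE1 : (E : ℕ) = 1 := by
    by_contra hne
    have hlt : 1 < (E : ℕ) := by
      have := E.pos
      omega
    exact hSf_of hf hfix hNo R hRH hRN hA _ (Cfsg.Agent.Lib.AschU.Main.fixSub_ne_top hE (by omega) hlt)
      (realisable_prime hE E.pos hA hSC h2 hm hZ)
  have hp : Fintype.card F = p := by
    rw [hE, hE1, pow_one]
  have hodd : Odd p := by
    rcases hpp.eq_two_or_odd' with rfl | h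
    · exact absurd (by exact_mod_cast CharP.cast_eq_zero F 2) h2
    · exact h
  exact cl6_core hf halt hNo hp hpp hodd hRiso hA hSC hcard h2' (le_normalizer hRN)
    (cyc_of_char hf halt hfix hNo hRH hRN)

/-- The odd prime alternative. -/
theorem odd_case [Nonempty ι] (hcard : 2 ≤ Fintype.card ι) (hf : HF (RingEquiv.refl F) (-1) f)
    {R : Subgroup (GL ι F)} (hRiso : ∀ x ∈ R, ∀ u v, f ((x : Matrix ι ι F) *ᵥ u) ((x : Matrix ι ι F) *ᵥ v) = f u v)
    (hA : ActsAbsolutelyIrreducibly (matrixSet R)) (hSC : ScC R) {r : ℕ} (hodd : Odd r) (hx : ∀ x ∈ R, x ^ r = 1) : False := by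
  classical
  obtain ⟨-, -, -, -, c, hc1, hcR, -⟩ := exists_comm_elt' hcard hA hSC
  have hc2 : (c : F) * c = 1 := by
    obtain ⟨i₀⟩ := ‹Nonempty ι›
    let v : ι → F := Pi.single i₀ 1
    have hv : v ≠ 0 := by
      intro h0
      have := congrFun h0 i₀
      simp [v] at this
    obtain ⟨⟨u, hu⟩, -⟩ := hf.nd v hv
    have h1 := hRiso _ hcR u v
    rw [sc_val, Matrix.smul_mulVec, Matrix.smul_mulVec, Matrix.one_mulVec, Matrix.one_mulVec, hf.sesq.smul_left, hf.sesq.smul_right] at h1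
    simp only [RingEquiv.refl_apply] at h1
    have h3 : ((c : F) * c - 1) * f u v = 0 := by linear_combination h1
    exact sub_eq_zero.1 ((mul_eq_zero.1 h3).resolve_right hu)
  have hcr : c ^ r = 1 := sc_inj (ι := ι) (by rw [map_pow, hx _ hcR, map_one])
  have hc2' : c ^ 2 = 1 := by
    apply Units.ext
    rw [Units.val_pow_eq_pow_val, Units.val_one, pow_two, hc2]
  obtain ⟨s, hs⟩ := hodd
  apply hc1
  rw [hs, pow_succ, pow_mul, hc2', one_pow, one_mul] at hcr
  exact hcr

/-- No quadratic form. -/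
theorem no_quad [Nonempty ι] (hcard : 2 ≤ Fintype.card ι) (hf : HF (RingEquiv.refl F) (-1) f) (halt : ∀ v, f v v = 0)
    (hfix : ∀ g ∈ H, ∀ u v, f ((g : Matrix ι ι F) *ᵥ u) ((g : Matrix ι ι F) *ᵥ v) = f u v) (hNo : SNoClass f H)
    {P : Subgroup (GL ι F)} (hP : IsResidualCore H P) :
    ¬ ∃ Q : (ι → F) → F, IsNondegenerateQuadraticForm Q ∧ FixesQuadForm (matrixSet P) Q := by
  classical
  rintro ⟨Q, hQ, hQfix⟩
  have hPfix : FixesForm (matrixSet P) f := by
    rintro _ ⟨x, hx, rfl⟩ u v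
    exact hfix x (hP.le hx) u v
  have hS₀ : Sesq (RingEquiv.refl F) (QuadraticMap.polar Q) :=
    ⟨hQ.polar_bilinear.add_left, hQ.polar_bilinear.smul_left, hQ.polar_bilinear.add_right, hQ.polar_bilinear.smul_right⟩
  have hpf : FixesForm (matrixSet P) (QuadraticMap.polar Q) := by
    intro s hs u v
    simp only [QuadraticMap.polar]
    rw [← Matrix.mulVec_add, hQfix s hs, hQfix s hs, hQfix s hs]
  obtain ⟨c, hc⟩ := forms_proportional hf.sesq hS₀ hf.nd hP.absIrred hPfix hpf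
  obtain ⟨i₀⟩ := ‹Nonempty ι›
  have hv₀ : (Pi.single i₀ 1 : ι → F) ≠ 0 := by
    intro h0
    have := congrFun h0 i₀
    simp at this
  have hc0 : c ≠ 0 := by
    rintro rfl
    obtain ⟨⟨u, hu⟩, -⟩ := hQ.nondegenerate _ hv₀
    exact hu (by rw [hc, zero_mul])
  by_cases h2 : (2 : F) = 0
  · -- even characteristic
    let Q' : (ι → F) → F := fun v => c⁻¹ * Q v
    have hsm : ∀ (a : F) v, Q' (a • v) = a ^ 2 * Q' v := by
      intro a v
      simp only [Q']
      rw [hQ.smul]
      ring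
    have hpol : ∀ u v, Q' (u + v) = Q' u + Q' v + f u v := by
      intro u v
      have h1 := hc u v
      simp only [QuadraticMap.polar] at h1
      simp only [Q']
      have h3 : Q (u + v) = c * f u v + Q u + Q v := by linear_combination h1
      rw [h3]
      field_simp
      ring
    have hP' : ∀ x ∈ P, ∀ v, Q' ((x : Matrix ι ι F) *ᵥ v) = Q' v := by
      intro x hx v
      simp only [Q']
      rw [hQfix _ ⟨x, hx, rfl⟩]
    refine quad_false hf hNo h2 hsm hpol ?_
    intro h hh v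
    let D : (ι → F) → F := fun v => Q' ((h : Matrix ι ι F) *ᵥ v) - Q' v
    have hDadd : ∀ u v, D (u + v) = D u + D v := by
      intro u v
      simp only [D]
      rw [Matrix.mulVec_add, hpol, hpol, hfix h hh]
      ring
    have hDsm : ∀ (a : F) v, D (a • v) = a ^ 2 * D v := by
      intro a v
      simp only [D]
      rw [Matrix.mulVec_smul, hsm, hsm]
      ring
    obtain ⟨v₁, hv₁, hDv₁⟩ := exists_ker h2 hcard D hDadd hDsm
    let W : Submodule F (ι → F) :=
      { carrier := {v | D v = 0}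
        add_mem' := by
          intro a b ha hb
          change D (a + b) = 0
          rw [hDadd, show D a = 0 from ha, show D b = 0 from hb, add_zero]
        zero_mem' := by
          change D 0 = 0
          have := hDsm 0 0
          rwa [zero_smul, zero_pow two_ne_zero, zero_mul] at this
        smul_mem' := by
          intro a b hb
          change D (a • b) = 0
          rw [hDsm, show D b = 0 from hb, mul_zero] }
    have hWinv : ∀ x ∈ P, ∀ v ∈ W, (x : Matrix ι ι F) *ᵥ v ∈ W := by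
      intro x hx w hw
      change D _ = 0
      have hw' : D w = 0 := hw
      have hconj := hP.normal h hh x hx
      have h1 : (h : Matrix ι ι F) *ᵥ ((x : Matrix ι ι F) *ᵥ w) =
          (((h * x * h⁻¹ : GL ι F)) : Matrix ι ι F) *ᵥ ((h : Matrix ι ι F) *ᵥ w) := by
        rw [Matrix.mulVec_mulVec, Matrix.mulVec_mulVec]
        congr 1
        rw [← Units.val_mul, ← Units.val_mul]
        congr 1
        group
      simp only [D] at hw' ⊢
      rw [h1, hP' _ hconj, hP' x hx]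
      exact hw'
    have hv₁W : v₁ ∈ W := hDv₁
    rcases irr_inv hP.absIrred.1 hWinv with h0 | h0
    · rw [h0] at hv₁W
      exact absurd ((Submodule.mem_bot F).1 hv₁W) hv₁
    · have hvW : v ∈ W := by
        rw [h0]
        exact Submodule.mem_top
      exact sub_eq_zero.1 hvW
  · -- odd characteristic
    have hQ0 : ∀ v, Q v = 0 := by
      intro v
      have h1 := hc v v
      rw [halt, mul_zero] at h1
      simp only [QuadraticMap.polar] at h1
      have h3 : v + v = (2 : F) • v := by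
        rw [two_smul]
      rw [h3, hQ.smul] at h1
      have h4 : (2 : F) * Q v = 0 := by linear_combination h1
      exact (mul_eq_zero.1 h4).resolve_left h2
    obtain ⟨⟨u, hu⟩, -⟩ := hQ.nondegenerate _ hv₀
    apply hu
    simp only [QuadraticMap.polar]
    rw [hQ0, hQ0, hQ0]
    ring

/-- The main theorem. -/
theorem main_of_noclass [Nonempty ι] (hf : HF (RingEquiv.refl F) (-1) f) (halt : ∀ v, f v v = 0) (hcard : 2 ≤ Fintype.card ι)
    (hfix : ∀ g ∈ H, ∀ u v, f ((g : Matrix ι ι F) *ᵥ u) ((g : Matrix ι ι F) *ᵥ v) = f u v) (hNo : SNoClass f H) :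
    InSymplecticResidualClass H := by
  classical
  rcases aschF hcard hf H hfix (noStr hf halt hfix hNo)
      (fun a k e₂ P₂ A ε₁ c ha hk hA hc hlaw hε hle => wr_false hf halt hfix hNo a k e₂ P₂ A ε₁ c ha hk hA hc hlaw hε hle)
      (hSf_of hf hfix hNo) with
    ⟨r, R, hr, hRH, hRN, hA, hSC, ⟨-, h2⟩ | ⟨hodd, hx⟩⟩ | ⟨P, hP⟩
  · exact (two_case hcard hf halt hfix hNo hRH hRN hA hSC h2).elim
  · exact (odd_case hcard hf (fun x hx => hfix x (hRH hx)) hA hSC hodd hx).elim
  · refine ⟨P, hP, no_quad hcard hf halt hfix hNo hP, ?_⟩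
    refine Cfsg.Agent.Lib.AschF.OddE.no_unitary_of_bilinear hf.sesq hf.nd hP.absIrred hP.no_subfield ?_
    rintro _ ⟨x, hx, rfl⟩ u v
    exact hfix x (hP.le hx) u v

end Cfsg.Agent.Lib.AschS.Main
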